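/-
InvChar: a criterion for the simplicity of a group fusion system through normalizers of centric subgroups.
-/
import Cfsg.Agent.S5160
import Cfsg.Agent.Lib.PSolvable.FrattiniFacts

set_option autoImplicit false

namespace CfsgLib.InvChar.CharPSimple

open Cfsg.FusionSystem CfsgLib.Alperin

variable {G : Type*} [Group G] {p : ℕ}

/-- A strongly closed subgroup absorbs conjugates lying in `S`. -/
theorem mem_of_closed {S T : Subgroup G} (hT : (Cfsg.groupFusionSystem S).StronglyClosed T) {x : G} (hx : x ∈ T)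
    (g : G) (h : g * x * g⁻¹ ∈ S) : g * x * g⁻¹ ∈ T := by
  refine hT.2 (Subgroup.zpowers x) ((Subgroup.zpowers_le).2 hx) _
    (CfsgLib.FusionBasics.conjHom_mem_group g ((Subgroup.zpowers_le).2 (hT.1 hx)) fun y hy => ?_)
    ⟨x, Subgroup.mem_zpowers x⟩
  obtain ⟨k, rfl⟩ := Subgroup.mem_zpowers_iff.1 hy
  rw [← conj_zpow]
  exact zpow_mem h k

theorem mem_normalizer_of_conj_mem [Finite G] {H : Subgroup G} {g : G} (h : ∀ x ∈ H, g * x * g⁻¹ ∈ H) :
    g ∈ Subgroup.normalizer (H : Set G) := by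
  have hle : H.map (MulAut.conj g).toMonoidHom ≤ H := by rintro _ ⟨x, hx, rfl⟩; exact h x hx
  have heq := Subgroup.eq_of_le_of_card_ge hle (le_of_eq (Subgroup.card_map_of_injective (MulAut.conj g).injective).symm)
  refine Subgroup.mem_normalizer_iff.2 fun x => ⟨h x, fun hx => ?_⟩
  rw [← heq] at hx
  obtain ⟨y, hy, e⟩ := hx
  rwa [← (MulAut.conj g).injective e]

/-- A subgroup containing its centralizer is centric. -/
theorem isCentric_of_centralizer_le {S R : Subgroup G} (hR : R ≤ S)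
    (h : ∀ x : G, (∀ r ∈ R, Commute x r) → x ∈ R) : (Cfsg.groupFusionSystem S).IsCentric R := by
  refine ⟨hR, ?_⟩
  rintro Q ⟨ψ, ⟨-, -, g, hg⟩, rfl⟩ c ⟨-, hcQ⟩
  have hin : g⁻¹ * c * g ∈ R := by
    refine h _ fun r hr => ?_
    have h := Subgroup.mem_centralizer_iff.1 hcQ _ ⟨⟨r, hr⟩, rfl⟩
    simp only [hg] at h
    show g⁻¹ * c * g * r = r * (g⁻¹ * c * g)
    calc g⁻¹ * c * g * r = g⁻¹ * (c * (g * r * g⁻¹)) * g := by group
      _ = g⁻¹ * (g * r * g⁻¹ * c) * g := by rw [h]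
      _ = _ := by group
  refine ⟨⟨_, hin⟩, ?_⟩
  rw [hg]
  show g * (g⁻¹ * c * g) * g⁻¹ = c
  group

/-- The elements generated by the `p`-elements of the normalizer of `R`. -/
def pNorm (p : ℕ) (R : Subgroup G) : Subgroup G :=
  Subgroup.closure {g | g ∈ Subgroup.normalizer (R : Set G) ∧ ∃ k : ℕ, orderOf g = p ^ k}

theorem mem_pNorm [Fact p.Prime] {R : Subgroup G} {g : G} (hg : g ∈ Subgroup.normalizer (R : Set G)) {k : ℕ}
    (h : g ^ p ^ k = 1) : g ∈ pNorm p R := by
  obtain ⟨j, -, hj⟩ := (Nat.dvd_prime_pow (Fact.out : p.Prime)).1 (orderOf_dvd_of_pow_eq_one h)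
  exact Subgroup.subset_closure ⟨hg, j, hj⟩

/-- A nontrivial strongly closed subgroup meets the centre of `S`. -/
theorem exists_mem_center [Finite G] [Fact p.Prime] (S : Sylow p G) {T : Subgroup G}
    (hT : (Cfsg.groupFusionSystem (S : Subgroup G)).StronglyClosed T) (hne : T ≠ ⊥) :
    ∃ z ∈ T, z ≠ 1 ∧ ∀ s ∈ (S : Subgroup G), s * z = z * s := by
  set S' : Subgroup G := (S : Subgroup G)
  haveI : (T.subgroupOf S').Normal := ⟨fun x hx g => mem_of_closed hT hx (g : G) (g * x * g⁻¹).2⟩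
  haveI : Group.IsNilpotent S' := S.isPGroup'.isNilpotent
  have hne' : T.subgroupOf S' ≠ ⊥ := fun h => hne (by
    rw [← Subgroup.map_subgroupOf_eq_of_le hT.1, h, Subgroup.map_bot])
  obtain ⟨⟨z, hz⟩, hz1⟩ := Subgroup.ne_bot_iff_exists_ne_one.1 (CfsgLib.PSolvable.inf_center_ne_bot hne')
  refine ⟨(z : G), hz.1, fun h => hz1 (Subtype.ext (Subtype.ext h)), fun s hs => ?_⟩
  exact congrArg Subtype.val (Subgroup.mem_center_iff.1 hz.2 ⟨s, hs⟩)

/-- The fusion system is simple if nontrivial strongly closed subgroups are all of `S` and the normalizer of `S` is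
generated by `S` and elements generated by `p`-elements of normalizers of centric subgroups normal in `S`. -/
theorem isSimple_of_criterion [Finite G] [Fact p.Prime] (S : Sylow p G) (hS : (S : Subgroup G) ≠ ⊥)
    (hT : ∀ T, (Cfsg.groupFusionSystem (S : Subgroup G)).StronglyClosed T → T ≠ ⊥ → (S : Subgroup G) ≤ T)
    (hN : Subgroup.normalizer ((S : Subgroup G) : Set G) ≤ (S : Subgroup G) ⊔ Subgroup.closure
      {t | t ∈ Subgroup.normalizer ((S : Subgroup G) : Set G) ∧ ∃ R : Subgroup G,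
        (Cfsg.groupFusionSystem (S : Subgroup G)).IsCentric R ∧
        (S : Subgroup G) ≤ Subgroup.normalizer (R : Set G) ∧ t ∈ pNorm p R}) :
    (Cfsg.groupFusionSystem (S : Subgroup G)).IsSimple p := by
  have hF : (Cfsg.groupFusionSystem (S : Subgroup G)).IsSaturated p := CfsgLib.FusionBasics.group_isSaturated S
  refine ⟨hF, hS, fun T E hE => ?_⟩
  by_cases hbot : T = ⊥
  · exact Or.inl hbot
  obtain rfl : T = (S : Subgroup G) := le_antisymm hE.1.2.2.2.1.1 (hT T hE.1.2.2.2.1 hbot)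
  refine Or.inr ⟨rfl, fun P => Set.Subset.antisymm (hE.1.2.2.1 P) fun f hf => ?_⟩
  have hinv := hE.1.2.2
  set J := ((E.autGroup (S : Subgroup G)).comap (S : Subgroup G).normalizerMonoidHom).map
    (Subgroup.normalizer ((S : Subgroup G) : Set G)).subtype with hJ
  have hgen : (S : Subgroup G) ⊔ Subgroup.closure
      {t | t ∈ Subgroup.normalizer ((S : Subgroup G) : Set G) ∧ ∃ R : Subgroup G,
        (Cfsg.groupFusionSystem (S : Subgroup G)).IsCentric R ∧
        (S : Subgroup G) ≤ Subgroup.normalizer (R : Set G) ∧ t ∈ pNorm p R} ≤ J := by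
    refine sup_le (fun u hu => ⟨⟨u, Subgroup.le_normalizer hu⟩,
      autInducedBy_le_autGroup E le_rfl (conjAut_mem hu _), rfl⟩) ((Subgroup.closure_le _).2 ?_)
    rintro t ⟨htS, R, hRc, hSR, ht⟩
    have hRn : (Cfsg.groupFusionSystem (S : Subgroup G)).IsFullyNormalized R := by
      refine ⟨hRc.1, fun Q _ => ?_⟩
      have h1 : normalizerIn (S : Subgroup G) R = (S : Subgroup G) :=
        le_antisymm inf_le_left (le_inf le_rfl hSR)
      rw [h1]
      exact Subgroup.card_le_of_le inf_le_left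
    obtain ⟨htN, htE⟩ := Cfsg.Agent.S5160.pElements_mem S hinv hRn ht
    have h := Cfsg.Agent.S5160.lift_top S hE.1.1 hE.1.2.2.1 htS R hRc htN
      (mem_of_apply_eq ((mem_autGroup_iff E hRc.1).mp htE) fun x => rfl)
    exact ⟨⟨t, htS⟩, (mem_autGroup_iff E le_rfl).mpr (mem_of_apply_eq h fun x => rfl), rfl⟩
  have htop : (Cfsg.groupFusionSystem (S : Subgroup G)).autGroup (S : Subgroup G) ≤ E.autGroup (S : Subgroup G) := by
    rw [CfsgLib.FusionBasics.group_autGroup le_rfl]
    refine (Subgroup.closure_le _).mpr ?_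
    rintro a ⟨g, -, hga⟩
    obtain ⟨⟨g', hg'⟩, hgE, hgg⟩ : g ∈ J := hgen (hN (normalizer_of_induced hga))
    change g' = g at hgg
    subst hgg
    exact (mem_autGroup_iff E le_rfl).mpr
      (mem_of_apply_eq ((mem_autGroup_iff E le_rfl).mp hgE) fun x => hga x)
  have hP := dom_le hf
  obtain ⟨α, hα, f₀, hf₀, hx⟩ := hinv.2.2.2 P hP f hf
  have hm : ∀ x : P, f₀ x ∈ (S : Subgroup G) := (E.le_of_mem hf₀).2
  exact comp_mem_apply hf₀ ((mem_autGroup_iff E le_rfl).mp (htop hα)) hm fun x => hx x (hm x)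

end CfsgLib.InvChar.CharPSimple
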