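/-
InvChar: common non-neighbours of two members and permutations of commuting triples in Fischer groups.
-/
import Mathlib
import Cfsg.Prelude.Def_FischerSpaces
import Cfsg.Agent.Lib.InvChar.FischerProducts

set_option autoImplicit false
set_option linter.style.haveILetI false

namespace CfsgLib.InvChar.FischerTriples

open CfsgLib.Fischer CfsgLib.InvChar.FischerProducts

variable {G : Type*} [Group G] {D : Set G}

/-- In a group with one class and trivial centre two members have a common non-commuting member. -/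
theorem exists_common [Finite G] (hG : Good D) {a b : G} (ha : a ∈ D) (hb : b ∈ D) :
    ∃ y ∈ D, ¬ Commute a y ∧ ¬ Commute b y := by
  by_contra hno
  push Not at hno
  set N : Subgroup G := Subgroup.closure {y : G | y ∈ D ∧ ¬ Commute a y}
  have hnorm : N.Normal := by
    rw [← Subgroup.normalizer_eq_top_iff, eq_top_iff, ← hG.tt.2.2, Subgroup.closure_le]
    intro z hz
    by_cases hc : Commute a z
    · have hle : ∀ w : G, Commute a w → ∀ x ∈ N, w * x * w⁻¹ ∈ N := by
        intro w hw x hx
        refine ((Subgroup.closure_le (N.comap (MulAut.conj w).toMonoidHom)).2 ?_ hx :)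
        rintro y ⟨hy, hay⟩
        refine Subgroup.subset_closure ⟨hG.tt.2.1 w y hy, fun h => hay ?_⟩
        have := h.map (MulAut.conj w⁻¹)
        simpa [MulAut.conj_apply, mul_assoc, hw.inv_right.eq.symm] using this
      refine Subgroup.mem_normalizer_iff.2 fun x => ⟨hle z hc x, fun hx => ?_⟩
      have := hle z⁻¹ hc.inv_right _ hx
      simpa [mul_assoc] using this
    · exact Subgroup.le_normalizer (Subgroup.subset_closure ⟨hz, hc⟩)
  obtain ⟨y, hy, hay⟩ := exists_noncommuting hG.tt hG.center ha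
  have hyN : y ∈ N := Subgroup.subset_closure ⟨hy, hay⟩
  have hy'N : a * y * a ∈ N := Subgroup.subset_closure
    ⟨by simpa [inv_eq hG.tt.1 ha] using hG.tt.2.1 a y hy, not_commute_third_left hG.tt.1 ha hy hay⟩
  have haN : a ∈ N := by
    have e : a = y * (a * y * a) * y := by
      rw [braid hG.tt.1 ha hy hay, show y * (y * a * y) * y = (y * y) * a * (y * y) by group,
        sq_eq_one hG.tt.1 hy, one_mul, mul_one]
    rw [e]
    exact mul_mem (mul_mem hyN hy'N) hyN
  have htop : N = ⊤ := by
    rw [eq_top_iff, ← hG.tt.2.2, Subgroup.closure_le]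
    intro z hz
    obtain ⟨g, rfl⟩ := hG.conj a ha z hz
    exact hnorm.conj_mem a haN g
  refine ne_one hG.tt.1 hb ?_
  rw [← Subgroup.mem_bot, ← hG.center, Subgroup.mem_center_iff]
  intro g
  have hg : g ∈ N := htop ▸ Subgroup.mem_top g
  exact Subgroup.mem_centralizer_singleton_iff.1 ((Subgroup.closure_le _).2
    (fun x hx => Subgroup.mem_centralizer_singleton_iff.2 (hno x hx.1 hx.2).eq.symm) hg)

/-- Two members commuting with `d` have a common non-commuting member commuting with `d`, if the local group is good. -/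
theorem exists_common_perp [Finite G] (hG : Good D) {d : G} (hd : d ∈ D) {H : Subgroup G}
    (hH : H = Subgroup.closure (perp D d)) (hI : Good (imageSet D d H \ {1})) {a b : G}
    (ha : a ∈ perp D d) (hb : b ∈ perp D d) : ∃ y ∈ perp D d, ¬ Commute a y ∧ ¬ Commute b y := by
  let π := QuotientGroup.mk' (Subgroup.center H)
  have hne : ∀ x : H, x ∈ memberSet D d H → π x ∈ imageSet D d H \ {1} := by
    intro x hx
    refine ⟨⟨x, hx, rfl⟩, fun h => ?_⟩
    obtain ⟨w, hw, hxw⟩ := not_central hG hd hx
    exact hxw ((not_central_iff hH x.2).1 ((QuotientGroup.eq_one_iff x).1 h) w hw)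
  obtain ⟨q, ⟨⟨y, hy, rfl⟩, -⟩, hay, hby⟩ :=
    exists_common hI (hne ⟨a, mem_of_perp hH ha⟩ ha) (hne ⟨b, mem_of_perp hH hb⟩ hb)
  exact ⟨y, hy, fun h => hay ((show Commute (⟨a, mem_of_perp hH ha⟩ : H) y from Subtype.ext h.eq).map π),
    fun h => hby ((show Commute (⟨b, mem_of_perp hH hb⟩ : H) y from Subtype.ext h.eq).map π)⟩

/-- The same for every member, when one class. -/
theorem exists_common_perp_all [Finite G] (hG : Good D) {d : G} (hd : d ∈ D)
    (hI : Good (imageSet D d (Subgroup.closure (perp D d)) \ {1})) {c a b : G} (hc : c ∈ D)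
    (ha : a ∈ perp D c) (hb : b ∈ perp D c) : ∃ y ∈ perp D c, ¬ Commute a y ∧ ¬ Commute b y := by
  obtain ⟨g, hg⟩ := hG.conj c hc d hd
  have hperp : ∀ (g : G) {x m : G}, x ∈ perp D m → MulAut.conj g x ∈ perp D (MulAut.conj g m) := fun g x m hx =>
    ⟨hG.tt.2.1 g x hx.1, fun h => hx.2.1 ((MulAut.conj g).injective h), hx.2.2.map _⟩
  have hgc : MulAut.conj g c = d := hg
  obtain ⟨y, hy, hay, hby⟩ := exists_common_perp hG hd rfl hI (hgc ▸ hperp g ha) (hgc ▸ hperp g hb)
  have hcy : MulAut.conj g⁻¹ y ∈ perp D c := by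
    have h := hperp g⁻¹ hy
    rwa [← hgc, show MulAut.conj g⁻¹ (MulAut.conj g c) = c by simp [MulAut.conj_apply, mul_assoc]] at h
  have hback : ∀ x, MulAut.conj g (MulAut.conj g⁻¹ x) = x := fun x => by simp [MulAut.conj_apply, mul_assoc]
  refine ⟨_, hcy, fun h => hay ?_, fun h => hby ?_⟩
  · have := h.map (MulAut.conj g)
    rwa [hback] at this
  · have := h.map (MulAut.conj g)
    rwa [hback] at this

/-- An element interchanging two commuting members and centralising a member commuting with both. -/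
theorem exists_swap (hD : Cfsg.IsThreeTranspositionSet D) {a b c y : G} (ha : a ∈ D) (hb : b ∈ D) (hy : y ∈ D)
    (hab : a ≠ b) (hc : Commute a b) (hay : ¬ Commute a y) (hby : ¬ Commute b y) (hca : Commute c a)
    (hcb : Commute c b) (hcy : Commute c y) :
    ∃ g : G, g * a * g⁻¹ = b ∧ g * b * g⁻¹ = a ∧ g * c * g⁻¹ = c := by
  obtain ⟨φ, -, h1, h2, h3⟩ := CfsgLib.Fischer.SymFour.exists_injective_of_string hD ha hy hb hab hc hay
    (fun h => hby h.symm)
  let σ : Equiv.Perm (Fin 4) := Equiv.swap 1 2 * Equiv.swap 0 1 * Equiv.swap 2 3 * Equiv.swap 1 2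
  have k1 : σ * Equiv.swap 0 1 * σ⁻¹ = Equiv.swap 2 3 := by decide
  have k2 : σ * Equiv.swap 2 3 * σ⁻¹ = Equiv.swap 0 1 := by decide
  refine ⟨φ σ, ?_, ?_, ?_⟩
  · rw [← h1, ← h3, ← map_inv, ← map_mul, ← map_mul, k1]
  · rw [← h1, ← h3, ← map_inv, ← map_mul, ← map_mul, k2]
  · have : Commute (φ σ) c := by
      simp only [σ, map_mul, h1, h2, h3]
      exact (((hcy.symm.mul_left hca.symm).mul_left hcb.symm).mul_left hcy.symm)
    rw [this.eq, mul_inv_cancel_right]

end CfsgLib.InvChar.FischerTriples
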