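/-
InvChar: the unitriangular group of SL_n, its minimal parabolic radicals and its normaliser.
-/
import Cfsg.Agent.Lib.ReflectionsSpinor.PSLAutRoot

set_option autoImplicit false
set_option linter.unusedSectionVars false

namespace CfsgLib.InvChar.PSLUnitriangular

open Matrix CfsgLib.ReflectionsSpinor.PSL

variable {n : ℕ} {F : Type*} [Field F]

local notation "M" => Matrix (Fin n) (Fin n) F
local notation "SLn" => Matrix.SpecialLinearGroup (Fin n) F
local notation "PSLn" => Matrix.ProjectiveSpecialLinearGroup (Fin n) F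

/-- An elementary transvection. -/
abbrev tr {i j : Fin n} (h : i ≠ j) (c : F) : SLn := Matrix.SpecialLinearGroup.transvection h c

theorem coe_tr {i j : Fin n} (h : i ≠ j) (c : F) : (tr h c : M) = Matrix.transvection i j c := rfl

theorem tr_apply {i j : Fin n} (h : i ≠ j) (c : F) (a b : Fin n) :
    (tr h c : M) a b = (if a = b then 1 else 0) + if i = a ∧ j = b then c else 0 := by
  rw [coe_tr, Matrix.transvection, Matrix.add_apply, Matrix.one_apply, Matrix.single_apply]

theorem tr_add {i j : Fin n} (h : i ≠ j) (c d : F) : tr h c * tr h d = tr h (c + d) := by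
  rw [tr, tr, tr, ← el_e h, ← el_e h, ← el_e h, el_add]

theorem tr_zero {i j : Fin n} (h : i ≠ j) : tr h (0 : F) = 1 := by rw [tr, ← el_e h, el_zero]

theorem tr_pow {i j : Fin n} (h : i ≠ j) (c : F) (m : ℕ) : tr h c ^ m = tr h (m • c) := by
  induction m with
  | zero => rw [pow_zero, zero_nsmul, tr_zero]
  | succ m ih => rw [pow_succ, ih, tr_add, succ_nsmul]

theorem exists_orderOf_eq {G : Type*} [Monoid G] {p : ℕ} [hp : Fact p.Prime] {x : G} {m : ℕ}
    (h : x ^ p ^ m = 1) : ∃ k : ℕ, orderOf x = p ^ k := by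
  obtain ⟨k, -, hk⟩ := (Nat.dvd_prime_pow hp.out).1 (orderOf_dvd_of_pow_eq_one h)
  exact ⟨k, hk⟩

theorem tr_pow_char {i j : Fin n} (h : i ≠ j) (c : F) (p : ℕ) [CharP F p] : tr h c ^ p ^ 1 = 1 := by
  rw [pow_one, tr_pow, nsmul_eq_mul, CharP.cast_eq_zero, zero_mul, tr_zero]

/-- A diagonal matrix of determinant one. -/
def dg (d : Fin n → F) (h : ∏ k, d k = 1) : SLn := ⟨Matrix.diagonal d, by rw [Matrix.det_diagonal, h]⟩

theorem coe_dg (d : Fin n → F) (h : ∏ k, d k = 1) : (dg d h : M) = Matrix.diagonal d := rfl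

/-- The diagonal of the torus of a root. -/
def hvec (i j : Fin n) (c : F) : Fin n → F := fun k => if k = i then c else if k = j then c⁻¹ else 1

theorem prod_hvec {i j : Fin n} (h : i ≠ j) {c : F} (hc : c ≠ 0) : ∏ k, hvec i j c k = 1 := by
  rw [Finset.prod_eq_mul i j h]
  · simp [hvec, h.symm, hc]
  · intro k _ hk
    simp [hvec, hk.1, hk.2]
  · simp
  · simp

theorem hvec_eq {i j : Fin n} (hij : i ≠ j) {c : F} (hc : c ≠ 0) :
    dg (hvec i j c) (prod_hvec hij hc) =
      tr hij.symm (c⁻¹ - 1) * tr hij 1 * tr hij.symm (c - 1) * tr hij (-c⁻¹) := by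
  refine Subtype.ext (Matrix.ext fun a b => ?_)
  have key : ∀ (A : M) (u v : Fin n) (t : F) (a b : Fin n),
      (A * Matrix.transvection u v t) a b = if b = v then A a b + t * A a u else A a b := by
    intro A u v t a b
    by_cases hb : b = v
    · subst hb; rw [if_pos rfl, Matrix.mul_transvection_apply_same]
    · rw [if_neg hb, Matrix.mul_transvection_apply_of_ne _ _ _ _ hb]
  simp only [Matrix.SpecialLinearGroup.coe_mul, coe_tr, coe_dg, key]
  rw [Matrix.diagonal_apply]
  simp only [Matrix.transvection, Matrix.add_apply, Matrix.one_apply, Matrix.single_apply, hvec]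
  by_cases ha : a = i <;> by_cases ha' : a = j <;> by_cases hb : b = i <;> by_cases hb' : b = j <;>
    (try subst ha) <;> (try subst hb) <;> simp_all [eq_comm] <;> field_simp <;> ring

theorem mem_closure_hvec (d : Fin n → F) (hd : ∏ k, d k = 1) :
    dg d hd ∈ Subgroup.closure
      {x : SLn | ∃ (i j : Fin n) (c : F) (hij : i ≠ j) (hc : c ≠ 0), (j : ℕ) = i + 1 ∧
        x = dg (hvec i j c) (prod_hvec hij hc)} := by
  suffices ∀ (t : ℕ) (d : Fin n → F) (hd : ∏ k, d k = 1), (∀ k : Fin n, (k : ℕ) + t < n → d k = 1) →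
      dg d hd ∈ Subgroup.closure
        {x : SLn | ∃ (i j : Fin n) (c : F) (hij : i ≠ j) (hc : c ≠ 0), (j : ℕ) = i + 1 ∧
          x = dg (hvec i j c) (prod_hvec hij hc)} from this n d hd fun k h => absurd h (by omega)
  intro t
  induction t with
  | zero =>
    intro d hd h
    have : dg d hd = 1 := Subtype.ext (by
      rw [coe_dg, Matrix.SpecialLinearGroup.coe_one, show d = fun _ => 1 from funext fun k => h k (by simp [k.2]),
        Matrix.diagonal_one])
    rw [this]
    exact one_mem _
  | succ t ih =>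
    intro d hd h
    by_cases htn : t < n
    · let i : Fin n := ⟨n - (t + 1), by omega⟩
      have hne0 : ∀ k, d k ≠ 0 := fun k hk => by
        rw [Finset.prod_eq_zero (Finset.mem_univ k) hk] at hd
        exact zero_ne_one hd
      by_cases ht0 : t = 0
      · subst ht0
        refine ih d hd fun k hk => ?_
        by_cases hki : k = i
        · subst hki
          rw [Finset.prod_eq_single i] at hd
          · exact hd
          · intro b _ hb
            refine h b ?_
            have : (b : ℕ) ≠ n - 1 := fun e => hb (Fin.ext (by simpa [i] using e))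
            omega
          · simp
        · have : (k : ℕ) ≠ n - 1 := fun e => hki (Fin.ext (by simpa [i] using e))
          exact h k (by omega)
      · let j : Fin n := ⟨n - t, by omega⟩
        have hji : (j : ℕ) = i + 1 := by simp only [i, j]; omega
        have hij : i ≠ j := fun e => by rw [← e] at hji; omega
        let d' : Fin n → F := fun k => d k * hvec i j (d i)⁻¹ k
        have hd' : ∏ k, d' k = 1 := by
          rw [Finset.prod_mul_distrib, hd, prod_hvec hij (inv_ne_zero (hne0 i)), one_mul]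
        have hsplit : dg d hd = dg d' hd' * dg (hvec i j (d i)) (prod_hvec hij (hne0 i)) := by
          refine Subtype.ext ?_
          rw [Matrix.SpecialLinearGroup.coe_mul, coe_dg, coe_dg, coe_dg, Matrix.diagonal_mul_diagonal]
          congr 1
          funext k
          by_cases h1 : k = i
          · rw [h1]; simp [d', hvec, hne0 i]
          · by_cases h2 : k = j
            · simp [d', hvec, h1, h2, hij.symm, hne0 i]
            · simp [d', hvec, h1, h2]
        rw [hsplit]
        refine mul_mem (ih d' hd' fun k hk => ?_) (Subgroup.subset_closure ⟨i, j, d i, hij, hne0 i, hji, rfl⟩)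
        by_cases h1 : k = i
        · subst h1; simp [d', hvec, hne0]
        · have h2 : k ≠ j := fun e => by rw [e] at hk; simp only [j] at hk; omega
          have : (k : ℕ) ≠ n - (t + 1) := fun e => h1 (Fin.ext e)
          simp [d', hvec, h1, h2, h k (by omega)]
    · exact ih d hd fun k hk => absurd hk (by omega)

theorem mem_normalizer_of_conj_mem {G : Type*} [Group G] [Finite G] {H : Subgroup G} {g : G}
    (h : ∀ x ∈ H, g * x * g⁻¹ ∈ H) : g ∈ Subgroup.normalizer (H : Set G) := by
  have hle : H.map (MulAut.conj g).toMonoidHom ≤ H := by rintro _ ⟨x, hx, rfl⟩; exact h x hx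
  have heq := Subgroup.eq_of_le_of_card_ge hle (le_of_eq (Subgroup.card_map_of_injective (MulAut.conj g).injective).symm)
  refine Subgroup.mem_normalizer_iff.2 fun x => ⟨h x, fun hx => ?_⟩
  rw [← heq] at hx
  obtain ⟨y, hy, e⟩ := hx
  rwa [← (MulAut.conj g).injective e]

variable [Finite F]

local notation "U" => upperUni n F

theorem tr_mem {i j : Fin n} (h : i < j) (c : F) : tr h.ne c ∈ U := by
  refine mem_upperUni.2 fun a b hab => ?_
  rw [tr_apply, if_neg (show ¬ (i = a ∧ j = b) from fun ⟨h1, h2⟩ => (h1 ▸ h2 ▸ hab).not_gt h), add_zero]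

/-- The unitriangular group is generated by its transvections. -/
theorem mem_closure_tr {s : SLn} (hs : s ∈ U) :
    s ∈ Subgroup.closure {x : SLn | ∃ (i j : Fin n) (h : i < j) (c : F), x = tr h.ne c} := by
  classical
  generalize hm : (Finset.univ.filter fun q : Fin n × Fin n => q.1 < q.2 ∧ (s : M) q.1 q.2 ≠ 0).card = m
  induction m using Nat.strong_induction_on generalizing s with
  | _ m ih =>
  set Φ := Finset.univ.filter fun q : Fin n × Fin n => q.1 < q.2 ∧ (s : M) q.1 q.2 ≠ 0
  rcases Φ.eq_empty_or_nonempty with h0 | hne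
  · have : s = 1 := Subtype.ext (Matrix.ext fun a b => by
      rw [Matrix.SpecialLinearGroup.coe_one, Matrix.one_apply]
      rcases lt_or_ge a b with hab | hab
      · by_contra hc
        rw [if_neg hab.ne] at hc
        have : (a, b) ∈ Φ := Finset.mem_filter.2 ⟨Finset.mem_univ _, hab, hc⟩
        rw [h0] at this
        simp at this
      · exact mem_upperUni.1 hs a b hab)
    rw [this]; exact one_mem _
  · obtain ⟨⟨j, k⟩, hjk, hmax⟩ := Finset.exists_max_image Φ (fun q => q.1) hne
    obtain ⟨-, hlt, hne0⟩ := Finset.mem_filter.1 hjk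
    have hrow : ∀ b, (s : M) k b = if k = b then 1 else 0 := fun b => by
      rcases lt_or_ge k b with hb | hb
      · rw [if_neg hb.ne]
        by_contra hc
        exact (hmax (k, b) (Finset.mem_filter.2 ⟨Finset.mem_univ _, hb, hc⟩)).not_gt hlt
      · exact mem_upperUni.1 hs k b hb
    let s' := tr hlt.ne (-(s : M) j k) * s
    have hs' : s' ∈ U := mul_mem (tr_mem hlt _) hs
    have hentry : ∀ a b, (s' : M) a b = if a = j ∧ b = k then 0 else (s : M) a b := by
      intro a b
      show (Matrix.transvection j k (-(s : M) j k) * (s : M)) a b = _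
      by_cases ha : a = j
      · rw [ha, Matrix.transvection_mul_apply_same, hrow]
        by_cases hb : b = k
        · rw [hb, if_pos rfl, if_pos ⟨rfl, rfl⟩]; ring
        · rw [if_neg (fun h => hb h.symm), if_neg (fun h => hb h.2)]; ring
      · rw [Matrix.transvection_mul_apply_of_ne _ _ _ _ ha, if_neg (fun h => ha h.1)]
    have hlt' : (Finset.univ.filter fun q : Fin n × Fin n => q.1 < q.2 ∧ (s' : M) q.1 q.2 ≠ 0).card < m := by
      rw [← hm]
      refine Finset.card_lt_card ((Finset.ssubset_iff_of_subset ?_).2 ⟨(j, k), hjk, ?_⟩)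
      · intro q hq
        obtain ⟨-, hq1, hq2⟩ := Finset.mem_filter.1 hq
        refine Finset.mem_filter.2 ⟨Finset.mem_univ _, hq1, fun hc => hq2 ?_⟩
        rw [hentry, hc, ite_self]
      · intro hq
        exact (Finset.mem_filter.1 hq).2.2 (by rw [hentry, if_pos ⟨rfl, rfl⟩])
    have hmem := ih _ hlt' hs' rfl
    have hmt : tr hlt.ne (-(s : M) j k) ∈
        Subgroup.closure {x : SLn | ∃ (i j : Fin n) (h : i < j) (c : F), x = tr h.ne c} :=
      Subgroup.subset_closure ⟨j, k, hlt, _, rfl⟩
    simpa [s'] using mul_mem (inv_mem hmt) hmem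

/-- The radical of the minimal parabolic of a simple root. -/
def rad (i j : Fin n) (hij : (j : ℕ) = i + 1) : Subgroup SLn :=
  let S : Submonoid SLn :=
    { carrier := {s | s ∈ U ∧ (s : M) i j = 0}
      one_mem' := ⟨one_mem _, by
        rw [Matrix.SpecialLinearGroup.coe_one, Matrix.one_apply, if_neg]
        intro e; rw [← e] at hij; omega⟩
      mul_mem' := by
        rintro s t ⟨hs, hs0⟩ ⟨ht, ht0⟩
        refine ⟨mul_mem hs ht, ?_⟩
        rw [Matrix.SpecialLinearGroup.coe_mul, Matrix.mul_apply]
        refine Finset.sum_eq_zero fun k _ => ?_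
        rcases lt_trichotomy k i with hk | hk | hk
        · rw [mem_upperUni.1 hs i k hk.le, if_neg hk.ne', zero_mul]
        · rw [hk, ht0, mul_zero]
        · rcases eq_or_ne k j with hk' | hk'
          · rw [hk', hs0, zero_mul]
          · have : j < k := by
              rw [Fin.lt_def] at hk ⊢
              have : (k : ℕ) ≠ j := fun e => hk' (Fin.ext e)
              omega
            rw [mem_upperUni.1 ht k j this.le, if_neg hk', mul_zero] }
  { S with
    inv_mem' := fun {s} hs => by
      have h : s⁻¹ = s ^ (orderOf s - 1) := by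
        refine inv_eq_of_mul_eq_one_left ?_
        rw [← pow_succ, Nat.sub_add_cancel (orderOf_pos s), pow_orderOf_eq_one]
      rw [h]
      exact S.pow_mem hs _ }

variable {i j : Fin n} (hij : (j : ℕ) = i + 1)
include hij

theorem mem_rad {s : SLn} : s ∈ rad i j hij ↔ s ∈ U ∧ (s : M) i j = 0 := Iff.rfl

theorem lt_succ : i < j := Fin.lt_def.2 (by omega)

theorem tr_mem_rad {a b : Fin n} (hab : a < b) (h : ¬ (a = i ∧ b = j)) (c : F) :
    tr hab.ne c ∈ rad i j hij := by
  refine ⟨tr_mem hab c, ?_⟩
  show (tr hab.ne c : M) i j = 0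
  rw [tr_apply, if_neg (lt_succ hij).ne, if_neg h, add_zero]

theorem conj_tr_upper {r : SLn} (hr : r ∈ rad i j hij) (c : F) :
    tr (lt_succ hij).ne c * r * (tr (lt_succ hij).ne c)⁻¹ ∈ rad i j hij := by
  obtain ⟨hrU, hr0⟩ := hr
  have hx := tr_mem (lt_succ hij) c
  have hxi : (tr (lt_succ hij).ne c)⁻¹ = tr (lt_succ hij).ne (-c) :=
    inv_eq_of_mul_eq_one_right (by rw [tr_add, add_neg_cancel, tr_zero])
  refine ⟨mul_mem (mul_mem hx hrU) (inv_mem hx), ?_⟩
  rw [hxi, Matrix.SpecialLinearGroup.coe_mul, Matrix.SpecialLinearGroup.coe_mul, coe_tr, coe_tr,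
    Matrix.mul_transvection_apply_same, Matrix.transvection_mul_apply_same, Matrix.transvection_mul_apply_same,
    hr0, mem_upperUni.1 hrU j j le_rfl, mem_upperUni.1 hrU j i (lt_succ hij).le, mem_upperUni.1 hrU i i le_rfl,
    if_pos rfl, if_pos rfl, if_neg (lt_succ hij).ne']
  ring

theorem conj_tr_lower {r : SLn} (hr : r ∈ rad i j hij) (c : F) :
    tr (lt_succ hij).ne' c * r * (tr (lt_succ hij).ne' c)⁻¹ ∈ rad i j hij := by
  obtain ⟨hrU, hr0⟩ := hr
  have hji := (lt_succ hij).ne'
  have hyi : (tr hji c)⁻¹ = tr hji (-c) :=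
    inv_eq_of_mul_eq_one_right (by rw [tr_add, add_neg_cancel, tr_zero])
  have hU := mem_upperUni.1 hrU
  have key : ∀ a b : Fin n, ((tr hji c * r * (tr hji c)⁻¹ : SLn) : M) a b =
      (r : M) a b + (if a = j then c * (r : M) i b else 0) -
        (if b = i then c * ((r : M) a j + if a = j then c * (r : M) i j else 0) else 0) := by
    intro a b
    rw [hyi, Matrix.SpecialLinearGroup.coe_mul, Matrix.SpecialLinearGroup.coe_mul, coe_tr, coe_tr]
    by_cases hb : b = i <;> by_cases ha : a = j
    · subst hb ha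
      rw [Matrix.mul_transvection_apply_same, Matrix.transvection_mul_apply_same,
        Matrix.transvection_mul_apply_same, if_pos rfl, if_pos rfl, if_pos rfl]
      ring
    · subst hb
      rw [Matrix.mul_transvection_apply_same, Matrix.transvection_mul_apply_of_ne _ _ _ _ ha,
        Matrix.transvection_mul_apply_of_ne _ _ _ _ ha, if_neg ha, if_pos rfl, if_neg ha]
      ring
    · subst ha
      rw [Matrix.mul_transvection_apply_of_ne _ _ _ _ hb, Matrix.transvection_mul_apply_same, if_pos rfl, if_neg hb]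
      ring
    · rw [Matrix.mul_transvection_apply_of_ne _ _ _ _ hb, Matrix.transvection_mul_apply_of_ne _ _ _ _ ha, if_neg ha,
        if_neg hb]
      ring
  refine ⟨mem_upperUni.2 fun a b hba => ?_, ?_⟩
  · rw [key, hr0, mul_zero, ite_self, add_zero]
    by_cases ha : a = j <;> by_cases hb : b = i
    · subst ha hb
      rw [if_pos rfl, if_pos rfl, hU a b hba, hU b b le_rfl, hU a a le_rfl]
      simp [hji]
    · subst ha
      rw [if_pos rfl, if_neg hb, hU a b hba]
      rcases lt_trichotomy b i with h | h | h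
      · rw [hU i b h.le, if_neg h.ne']; ring
      · exact absurd h hb
      · have : b = a := le_antisymm hba (Fin.le_def.2 (by rw [Fin.lt_def] at h; omega))
        rw [this, hr0]; ring
    · subst hb
      rw [if_neg ha, if_pos rfl, hU a b hba]
      rcases lt_trichotomy a j with h | h | h
      · have : a = b := le_antisymm (Fin.le_def.2 (by rw [Fin.lt_def] at h; omega)) hba
        rw [this, hr0]; ring
      · exact absurd h ha
      · rw [hU a j h.le, if_neg h.ne']; ring
    · rw [if_neg ha, if_neg hb, hU a b hba]; ring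
  · rw [key, hr0, if_neg (lt_succ hij).ne, if_neg hji]
    ring

theorem conj_dg {r : SLn} (hr : r ∈ rad i j hij) (d : Fin n → F) (hd : ∏ k, d k = 1) :
    dg d hd * r * (dg d hd)⁻¹ ∈ rad i j hij := by
  have hne0 : ∀ k, d k ≠ 0 := fun k hk => by
    rw [Finset.prod_eq_zero (Finset.mem_univ k) hk] at hd
    exact zero_ne_one hd
  have hd' : ∏ k, (d k)⁻¹ = 1 := by rw [Finset.prod_inv_distrib, hd, inv_one]
  have hinv : (dg d hd)⁻¹ = dg (fun k => (d k)⁻¹) hd' :=
    inv_eq_of_mul_eq_one_right (Subtype.ext (by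
      rw [Matrix.SpecialLinearGroup.coe_mul, coe_dg, coe_dg, Matrix.diagonal_mul_diagonal,
        Matrix.SpecialLinearGroup.coe_one, ← Matrix.diagonal_one]
      congr 1
      funext k
      exact mul_inv_cancel₀ (hne0 k)))
  have key : ∀ a b, ((dg d hd * r * (dg d hd)⁻¹ : SLn) : M) a b = d a * (r : M) a b * (d b)⁻¹ := fun a b => by
    rw [hinv, Matrix.SpecialLinearGroup.coe_mul, Matrix.SpecialLinearGroup.coe_mul, coe_dg, coe_dg,
      Matrix.mul_diagonal, Matrix.diagonal_mul]
  refine ⟨mem_upperUni.2 fun a b hba => ?_, by rw [key, hr.2, mul_zero, zero_mul]⟩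
  rw [key, mem_upperUni.1 hr.1 a b hba]
  by_cases hab : a = b
  · subst hab; rw [if_pos rfl, mul_one, mul_inv_cancel₀ (hne0 a)]
  · rw [if_neg hab, mul_zero, zero_mul]

omit hij in
theorem diag_pow {s : SLn} (hs : (s : M).IsUpperTriangular) (m : ℕ) :
    ((s ^ m : SLn) : M).IsUpperTriangular ∧ ∀ a, ((s ^ m : SLn) : M) a a = (s : M) a a ^ m := by
  induction m with
  | zero =>
    rw [pow_zero, Matrix.SpecialLinearGroup.coe_one]
    exact ⟨fun a b h => Matrix.one_apply_ne (ne_of_gt h), fun a => by rw [Matrix.one_apply_eq, pow_zero]⟩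
  | succ m ih =>
    rw [pow_succ, Matrix.SpecialLinearGroup.coe_mul]
    refine ⟨ih.1.mul hs, fun a => ?_⟩
    rw [Matrix.mul_apply, Finset.sum_eq_single a, ih.2, pow_succ]
    · intro k _ hk
      rcases lt_or_gt_of_ne hk with h | h
      · rw [ih.1 h, zero_mul]
      · rw [hs h, mul_zero]
    · simp

/-- An element of `p`-power order centralising the radical lies in it. -/
theorem mem_rad_of_commute {p : ℕ} [Fact p.Prime] [CharP F p] (hn : 3 ≤ n) {s : SLn} {m : ℕ}
    (hs : s ^ p ^ m = 1) (hc : ∀ r ∈ rad i j hij, s * r = r * s) : s ∈ rad i j hij := by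
  let first : Fin n := ⟨0, by omega⟩
  let last : Fin n := ⟨n - 1, by omega⟩
  have col : ∀ {a b : Fin n}, a < b → ¬ (a = i ∧ b = j) → ∀ l, l ≠ a → (s : M) l a = 0 := by
    intro a b hab h l hl
    have := congrArg (fun g : SLn => (g : M) l b) (hc _ (tr_mem_rad hij hab h (1 : F)))
    simp only [Matrix.SpecialLinearGroup.coe_mul, coe_tr, Matrix.mul_transvection_apply_same,
      Matrix.transvection_mul_apply_of_ne _ _ _ _ hl, one_mul] at this
    simpa using this
  have row : ∀ {a b : Fin n}, a < b → ¬ (a = i ∧ b = j) → ∀ l, l ≠ b → (s : M) b l = 0 := by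
    intro a b hab h l hl
    have := congrArg (fun g : SLn => (g : M) a l) (hc _ (tr_mem_rad hij hab h (1 : F)))
    simp only [Matrix.SpecialLinearGroup.coe_mul, coe_tr, Matrix.transvection_mul_apply_same,
      Matrix.mul_transvection_apply_of_ne _ _ _ _ hl, one_mul] at this
    simpa using this
  have hi0 := i.2
  have hj0 := j.2
  have hlow : ∀ a b : Fin n, b < a → (s : M) a b = 0 := by
    intro a b hba
    rw [Fin.lt_def] at hba
    by_cases hex : first = i ∧ a = j
    · have hb : (b : ℕ) = 0 := by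
        have h1 : (first : ℕ) = i := congrArg Fin.val hex.1
        have h2 : (a : ℕ) = j := congrArg Fin.val hex.2
        simp only [first] at h1
        omega
      refine col (a := b) (b := last) (Fin.lt_def.2 (by simp only [last]; omega)) ?_ a
        (Fin.ne_of_val_ne (by omega))
      rintro ⟨h1, h2⟩
      have h1 := congrArg Fin.val h1
      have h2 := congrArg Fin.val h2
      simp only [last] at h2
      omega
    · exact row (a := first) (b := a) (Fin.lt_def.2 (by simp only [first]; omega)) hex b (Fin.ne_of_val_ne (by omega))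
  have htri : (s : M).IsUpperTriangular := fun a b h => hlow a b h
  have hdiag : ∀ a, (s : M) a a = 1 := by
    intro a
    have h := (diag_pow htri (p ^ m)).2 a
    rw [hs, Matrix.SpecialLinearGroup.coe_one, Matrix.one_apply_eq] at h
    have h2 : ((s : M) a a - 1) ^ p ^ m = 0 := by rw [sub_pow_char_pow, one_pow, ← h, sub_self]
    exact sub_eq_zero.1 (pow_eq_zero_iff (pow_ne_zero m (Fact.out : p.Prime).ne_zero) |>.1 h2)
  refine ⟨mem_upperUni.2 fun a b hba => ?_, ?_⟩
  · rcases eq_or_ne a b with h | h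
    · subst h; rw [if_pos rfl, hdiag]
    · rw [if_neg h, hlow a b (lt_of_le_of_ne hba h.symm)]
  · by_cases hjl : (j : ℕ) + 1 < n
    · exact col (a := j) (b := last) (Fin.lt_def.2 (by simp only [last]; omega))
        (fun h => (lt_succ hij).ne' h.1) i (lt_succ hij).ne
    · refine row (a := first) (b := i) (Fin.lt_def.2 (by simp only [first]; omega)) ?_ j (lt_succ hij).ne'
      exact fun h => (lt_succ hij).ne h.2

omit hij in
/-- A matrix carrying the transvections of the unitriangular group to triangular matrices is triangular. -/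
theorem triangular_of_conj {s : SLn}
    (h : ∀ a b : Fin n, ∀ hab : a < b, ((s * tr hab.ne 1 * s⁻¹ : SLn) : M).IsUpperTriangular) :
    (s : M).IsUpperTriangular := by
  intro a j (haj : j < a)
  by_contra hne
  set t := ((s⁻¹ : SLn) : M) with ht
  have hst : (s : M) * t = 1 := by
    rw [ht, ← Matrix.SpecialLinearGroup.coe_mul, mul_inv_cancel, Matrix.SpecialLinearGroup.coe_one]
  have hts : t * (s : M) = 1 := by
    rw [ht, ← Matrix.SpecialLinearGroup.coe_mul, inv_mul_cancel, Matrix.SpecialLinearGroup.coe_one]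
  have hz : ∀ k b : Fin n, j < k → b < a → t k b = 0 := by
    intro k b hk hb
    have e := h j k hk hb
    rw [Matrix.SpecialLinearGroup.coe_mul, Matrix.SpecialLinearGroup.coe_mul, coe_tr, Matrix.transvection,
      mul_add, Matrix.mul_one, add_mul, ← ht, hst, Matrix.add_apply, Matrix.one_apply_ne (ne_of_gt hb), zero_add,
      Matrix.mul_assoc, Matrix.mul_apply, Finset.sum_eq_single j, Matrix.single_mul_apply_same, one_mul] at e
    · exact (mul_eq_zero.1 e).resolve_left hne
    · intro x _ hx
      rw [Matrix.single_mul_apply_of_ne _ _ _ _ _ hx, mul_zero]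
    · simp
  let E : (Fin a → F) →ₗ[F] (Fin n → F) :=
    { toFun := fun v b => if hb : b < a then v ⟨b, hb⟩ else 0
      map_add' := fun v w => funext fun b => by dsimp only [Pi.add_apply]; split_ifs <;> simp
      map_smul' := fun c v => funext fun b => by dsimp only [Pi.smul_apply, RingHom.id_apply]; split_ifs <;> simp }
  have hj1 : (j : ℕ) + 1 ≤ n := j.2
  let φ : (Fin a → F) →ₗ[F] (Fin ((j : ℕ) + 1) → F) :=
    LinearMap.comp (LinearMap.funLeft F F (Fin.castLE hj1) : (Fin n → F) →ₗ[F] _)
      (LinearMap.comp (Matrix.mulVecLin t : (Fin n → F) →ₗ[F] (Fin n → F)) E)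
  have hvanish : ∀ (v : Fin a → F) (k : Fin n), j < k → (t *ᵥ E v) k = 0 := fun v k hk => by
    show ∑ b, t k b * E v b = 0
    refine Finset.sum_eq_zero fun b _ => ?_
    show t k b * (if hb : b < a then v ⟨b, hb⟩ else 0) = 0
    split_ifs with hb
    · rw [hz k b hk hb, zero_mul]
    · rw [mul_zero]
  have hinj : Function.Injective φ := by
    rw [← LinearMap.ker_eq_bot, eq_bot_iff]
    intro v hv
    have h0 : t *ᵥ E v = 0 := funext fun k => by
      rcases lt_or_ge j k with hk | hk
      · exact hvanish v k hk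
      · exact congrFun (LinearMap.mem_ker.1 hv) ⟨k, by rw [Fin.le_def] at hk; omega⟩
    have h1 : E v = 0 := by rw [← Matrix.one_mulVec (E v), ← hst, ← Matrix.mulVec_mulVec, h0, Matrix.mulVec_zero]
    refine funext fun b => ?_
    have h4 : (if hb : (⟨b, b.2.trans a.2⟩ : Fin n) < a then v ⟨_, Fin.lt_def.1 hb⟩ else 0) = 0 :=
      congrFun h1 ⟨b, b.2.trans a.2⟩
    rw [dif_pos (Fin.lt_def.2 b.2)] at h4
    exact h4
  have hdim := LinearMap.finrank_le_finrank_of_injective hinj
  rw [Module.finrank_fin_fun, Module.finrank_fin_fun] at hdim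
  have haj' : (a : ℕ) = j + 1 := by rw [Fin.lt_def] at haj; omega
  obtain ⟨v, hv⟩ := (LinearMap.injective_iff_surjective_of_finrank_eq_finrank
    (by rw [Module.finrank_fin_fun, Module.finrank_fin_fun, haj'])).1 hinj
    (LinearMap.funLeft F F (Fin.castLE hj1) (Pi.single j 1))
  have he : t *ᵥ E v = Pi.single j 1 := funext fun k => by
    rcases lt_or_ge j k with hk | hk
    · rw [hvanish v k hk, Pi.single_eq_of_ne hk.ne']
    · exact congrFun hv ⟨k, by rw [Fin.le_def] at hk; omega⟩
  have h2 : E v = (s : M) *ᵥ Pi.single j 1 := by rw [← he, Matrix.mulVec_mulVec, hst, Matrix.one_mulVec]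
  have h3 := congrFun h2 a
  rw [Matrix.mulVec_single_one, Matrix.col_apply] at h3
  exact hne (h3.symm.trans (by simp [E]))

omit hij in
theorem exists_dg_mul {s : SLn} (hs : (s : M).IsUpperTriangular) :
    ∃ (d : Fin n → F) (hd : ∏ k, d k = 1), ∃ u ∈ U, s = dg d hd * u := by
  have hd : ∏ k, (s : M) k k = 1 := by rw [← Matrix.det_of_isUpperTriangular hs]; exact s.2
  refine ⟨_, hd, (dg _ hd)⁻¹ * s, mem_upperUni.2 fun a b hba => ?_, by rw [mul_inv_cancel_left]⟩
  have hne0 : ∀ k, (s : M) k k ≠ 0 := fun k hk => by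
    have h := Finset.prod_eq_zero (f := fun k => (s : M) k k) (Finset.mem_univ k) hk
    rw [hd] at h
    exact one_ne_zero h
  have h1 : ((dg _ hd : SLn) : M) * (((dg _ hd)⁻¹ * s : SLn) : M) = (s : M) := by
    rw [← Matrix.SpecialLinearGroup.coe_mul, mul_inv_cancel_left]
  have h2 := congrFun (congrFun h1 a) b
  rw [coe_dg, Matrix.diagonal_mul] at h2
  rcases eq_or_ne a b with h | h
  · subst h
    rw [if_pos rfl]
    exact (mul_eq_left₀ (hne0 a)).1 h2
  · rw [hs (lt_of_le_of_ne hba h.symm), mul_eq_zero] at h2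
    rw [if_neg h]
    exact h2.resolve_left (hne0 a)

omit hij in
/-- All nontrivial transvections are conjugate for `n ≥ 3`. -/
theorem exists_conj_tr (hn : 3 ≤ n) {a b c d : Fin n} (hab : a ≠ b) (hcd : c ≠ d) {t u : F} (ht : t ≠ 0) (hu : u ≠ 0) :
    ∃ g : SLn, g * tr hab t * g⁻¹ = tr hcd u := by
  classical
  obtain ⟨g, hg1, hg2⟩ := exists_gl_frame hab (e_ne_zero (F := F) c)
    (smul_ne_zero (div_ne_zero hu ht) (e_ne_zero d) : (u / t) • (e d : Fin n → F) ≠ 0)
    (by rw [smul_dotProduct, e_dot hcd, smul_zero])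
  obtain ⟨m, hma, hmb⟩ : ∃ m : Fin n, m ≠ a ∧ m ≠ b := by
    by_contra hc
    push Not at hc
    have hsub : (Finset.univ : Finset (Fin n)) ⊆ {a, b} := fun m _ => by
      by_cases h : m = a
      · simp [h]
      · simp [hc m h]
    have := (Finset.card_le_card hsub).trans Finset.card_le_two
    rw [Finset.card_univ, Fintype.card_fin] at this
    omega
  have hdet : ((g : M)).det ≠ 0 := (Matrix.GeneralLinearGroup.det g).ne_zero
  let δ : Fin n → F := fun k => if k = m then ((g : M).det)⁻¹ else 1
  have hδ : ∏ k, δ k = ((g : M).det)⁻¹ := by simp [δ]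
  have hg' : ((g : M) * Matrix.diagonal δ).det = 1 := by
    rw [Matrix.det_mul, Matrix.det_diagonal, hδ, mul_inv_cancel₀ hdet]
  let g' : SLn := ⟨(g : M) * Matrix.diagonal δ, hg'⟩
  have h1 : (g' : M) *ᵥ e a = e c := by
    show ((g : M) * Matrix.diagonal δ) *ᵥ e a = e c
    rw [← Matrix.mulVec_mulVec, show Matrix.diagonal δ *ᵥ e a = e a from funext fun k => by
      rw [Matrix.mulVec_diagonal]
      by_cases hk : k = a
      · simp [hk, δ, Ne.symm hma]
      · simp [hk]]
    exact hg1
  have h2 : (g' : M)ᵀ *ᵥ ((u / t) • e d) = e b := by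
    show ((g : M) * Matrix.diagonal δ)ᵀ *ᵥ _ = e b
    rw [Matrix.transpose_mul, Matrix.diagonal_transpose, ← Matrix.mulVec_mulVec, hg2]
    funext k
    rw [Matrix.mulVec_diagonal]
    by_cases hk : k = b
    · simp [hk, δ, Ne.symm hmb]
    · simp [hk]
  refine ⟨g', mul_inv_eq_iff_eq_mul.2 (Subtype.ext ?_)⟩
  rw [tr, tr, ← el_e hab, ← el_e hcd, Matrix.SpecialLinearGroup.coe_mul, Matrix.SpecialLinearGroup.coe_mul,
    coe_el, coe_el, mul_add, add_mul, Matrix.mul_one, Matrix.one_mul, Matrix.mul_smul, Matrix.smul_mul,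
    Matrix.mul_vecMulVec, h1, Matrix.vecMulVec_mul, ← Matrix.mulVec_transpose]
  congr 1
  rw [← h2, Matrix.mulVec_smul, Matrix.vecMulVec_smul, smul_smul, mul_div_cancel₀ _ ht]

end CfsgLib.InvChar.PSLUnitriangular
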