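/-
InvChar: strongly closed subgroups and centric radicals in the Sylow subgroup of PSp_{2m}.
-/
import Cfsg.Agent.Lib.InvChar.PSpUnipotent
import Cfsg.Agent.Lib.InvChar.CharPSimple

set_option autoImplicit false
set_option linter.unusedSectionVars false

namespace CfsgLib.InvChar.PSpFusion

open Matrix CfsgLib.ReflectionsSpinor.PSpAut CfsgLib.InvChar.PSpUnipotent CfsgLib.InvChar.CharPSimple
open CfsgLib.InvChar.PSLUnitriangular hiding mem_normalizer_of_conj_mem exists_orderOf_eq

section Sym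

variable {m : ℕ} {F : Type*} [Field F]

local notation "Mm" => Matrix (Fin m) (Fin m) F
local notation "SLm" => Matrix.SpecialLinearGroup (Fin m) F

/-- The symmetric matrix with entries `t` at `(a, b)` and `(b, a)`. -/
abbrev pr (a b : Fin m) (t : F) : Matrix (Fin m) (Fin m) F := Matrix.single a b t + Matrix.single b a t

theorem pr_symm (a b : Fin m) (t : F) : (pr a b t)ᵀ = pr a b t := by
  rw [pr, Matrix.transpose_add, Matrix.transpose_single, Matrix.transpose_single, add_comm]

theorem congr_single_apply (A : Mm) (b : Fin m) (c : F) (i j : Fin m) :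
    (A * Matrix.single b b c * Aᵀ) i j = A i b * c * A j b := by
  rw [Matrix.mul_apply, Finset.sum_eq_single b]
  · rw [Matrix.mul_single_apply_same, Matrix.transpose_apply]
  · intro k _ hk; rw [Matrix.mul_single_apply_of_ne (hbj := hk), zero_mul]
  · simp

theorem dg_congr_apply (d : Fin m → F) (hd : ∏ k, d k = 1) (X : Mm) (i j : Fin m) :
    ((dg d hd : SLm).1 * X * (dg d hd : SLm).1ᵀ) i j = d i * X i j * d j := by
  rw [coe_dg, Matrix.diagonal_transpose, Matrix.mul_diagonal, Matrix.diagonal_mul]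

variable [Finite F]

/-- An invariant additive set of symmetric matrices containing a nonzero central one contains all of them. -/
theorem sym_mem (P : AddSubgroup (Matrix (Fin m) (Fin m) F))
    (inv : ∀ (A : Matrix.SpecialLinearGroup (Fin m) F) X, X ∈ P →
      (A : Matrix (Fin m) (Fin m) F) * X * (A : Matrix (Fin m) (Fin m) F)ᵀ ∈ P)
    {i₀ i₁ : Fin m} (h01 : i₀ ≠ i₁) (hbig : (∃ i₂, i₂ ≠ i₀ ∧ i₂ ≠ i₁) ∨ ∃ d : F, d ≠ 0 ∧ d ≠ 1)
    {s r : F} (hz : Matrix.single i₀ i₀ s + pr i₀ i₁ r ∈ P) (hne : s ≠ 0 ∨ r ≠ 0) (h2 : (2 : F) * r = 0)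
    (hpure : ∀ r : F, r ≠ 0 → pr i₀ i₁ r ∈ P → Matrix.single i₀ i₀ (r * r) + pr i₀ i₁ r ∈ P)
    (X : Matrix (Fin m) (Fin m) F) (hX : Xᵀ = X) : X ∈ P := by
  classical
  -- a transvection
  obtain ⟨s₀, hs₀, htv⟩ : ∃ s₀ : F, s₀ ≠ 0 ∧ Matrix.single i₀ i₀ s₀ ∈ P := by
    by_cases hr : r = 0
    · subst hr
      refine ⟨s, by simpa using hne, ?_⟩
      simpa [pr] using hz
    have two : (2 : F) = 0 := (mul_eq_zero.1 h2).resolve_right hr
    obtain ⟨s', r', hs', hr', hz'⟩ : ∃ s' r' : F, s' ≠ 0 ∧ r' ≠ 0 ∧ Matrix.single i₀ i₀ s' + pr i₀ i₁ r' ∈ P := by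
      by_cases hs : s = 0
      · refine ⟨r * r, r, mul_ne_zero hr hr, hr, hpure r hr ?_⟩
        simpa [hs] using hz
      · exact ⟨s, r, hs, hr, hz⟩
    rcases hbig with ⟨i₂, h20, h21⟩ | ⟨d, hd0, hd1⟩
    · have h1 : pr i₀ i₂ r' ∈ P := by
        have := P.sub_mem (inv (tr h21 1) _ hz') hz'
        convert this using 1
        simp only [coe_tr, Matrix.transvection, pr, Matrix.transpose_add, Matrix.transpose_one,
          Matrix.transpose_single, Matrix.add_mul, Matrix.mul_add, Matrix.one_mul, Matrix.mul_one,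
          Matrix.single_mul_single_same, Matrix.single_mul_single_of_ne _ _ _ _ h01,
          Matrix.single_mul_single_of_ne _ _ _ _ h01.symm, Matrix.zero_mul, Matrix.mul_zero, one_mul, mul_one,
          add_zero, zero_add]
        abel
      have h3 : pr i₀ i₁ r' ∈ P := by
        have := P.sub_mem (inv (tr h21.symm 1) _ h1) h1
        convert this using 1
        simp only [coe_tr, Matrix.transvection, pr, Matrix.transpose_add, Matrix.transpose_one,
          Matrix.transpose_single, Matrix.add_mul, Matrix.mul_add, Matrix.one_mul, Matrix.mul_one,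
          Matrix.single_mul_single_same, Matrix.single_mul_single_of_ne _ _ _ _ h20,
          Matrix.single_mul_single_of_ne _ _ _ _ h20.symm, Matrix.zero_mul, Matrix.mul_zero, one_mul, mul_one,
          add_zero, zero_add]
        abel
      refine ⟨s', hs', ?_⟩
      have := P.sub_mem hz' h3
      rwa [add_sub_cancel_right] at this
    · refine ⟨s' * (d * d - 1), mul_ne_zero hs' fun h => hd1 ?_, ?_⟩
      · have : (d - 1) * (d - 1) = 0 := by linear_combination h + (1 - d) * two
        exact sub_eq_zero.1 (mul_self_eq_zero.1 this)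
      · have := P.sub_mem (inv (dg (hvec i₀ i₁ d) (prod_hvec h01 hd0)) _ hz') hz'
        convert this using 1
        ext a b
        rw [Matrix.sub_apply, dg_congr_apply]
        simp only [pr, Matrix.add_apply, Matrix.single_apply, hvec]
        by_cases c00 : i₀ = a ∧ i₀ = b
        · obtain ⟨rfl, rfl⟩ := c00
          simp [h01.symm]
          ring
        by_cases c01 : i₀ = a ∧ i₁ = b
        · obtain ⟨rfl, rfl⟩ := c01
          simp [h01, h01.symm]
          field_simp
          try ring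
        by_cases c10 : i₁ = a ∧ i₀ = b
        · obtain ⟨rfl, rfl⟩ := c10
          simp [h01, h01.symm]
          field_simp
          try ring
        simp [c00, c01, c10]
  -- all multiples at the first coordinate
  have hC : ∀ c : F, Matrix.single i₀ i₀ c ∈ P := by
    have hsq : ∀ d : F, Matrix.single i₀ i₀ (s₀ * (d * d)) ∈ P := by
      intro d
      by_cases hd : d = 0
      · subst hd; simpa using P.zero_mem
      convert inv (dg (hvec i₀ i₁ d) (prod_hvec h01 hd)) _ htv using 1
      ext a b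
      rw [dg_congr_apply]
      simp only [Matrix.single_apply, hvec]
      by_cases ha0 : i₀ = a <;> by_cases hb0 : i₀ = b <;> simp_all [eq_comm] <;> ring
    intro c
    by_cases two : (2 : F) = 0
    · haveI : CharP F 2 := CharTwo.of_one_ne_zero_of_two_eq_zero one_ne_zero two
      obtain ⟨d, hd⟩ := FiniteField.isSquare_of_char_two (ringChar.eq F 2) (c / s₀)
      convert hsq d using 2
      rw [← hd, mul_div_cancel₀ _ hs₀]
    · set t := c / 2 / s₀
      have h := P.sub_mem (P.sub_mem (hsq (t + 1)) (hsq t)) (hsq 1)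
      convert h using 1
      ext a b
      simp only [Matrix.sub_apply, Matrix.single_apply]
      split_ifs
      · simp only [t]; field_simp; ring
      · simp
  have hD : ∀ (a : Fin m) (c : F), Matrix.single a a c ∈ P := by
    intro a c
    by_cases ha : a = i₀
    · subst ha; exact hC c
    convert inv (tr (Ne.symm ha) (-1) * tr ha 1) _ (hC c) using 1
    ext i j
    rw [congr_single_apply, Matrix.SpecialLinearGroup.coe_mul, coe_tr, coe_tr,
      Matrix.mul_transvection_apply_same, Matrix.mul_transvection_apply_same]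
    simp only [Matrix.transvection, Matrix.add_apply, Matrix.one_apply, Matrix.single_apply]
    by_cases hi0 : i₀ = i <;> by_cases hia : a = i <;> by_cases hj0 : i₀ = j <;> by_cases hja : a = j <;>
      simp_all [eq_comm]
  have hO : ∀ (a b : Fin m) (c : F), a ≠ b → pr a b c ∈ P := by
    intro a b c hab
    have := P.sub_mem (P.sub_mem (inv (tr hab c) _ (hD b 1)) (hD a (c * c))) (hD b 1)
    convert this using 1
    simp only [coe_tr, Matrix.transvection, pr, Matrix.transpose_add, Matrix.transpose_one,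
      Matrix.transpose_single, Matrix.add_mul, Matrix.mul_add, Matrix.one_mul, Matrix.mul_one,
      Matrix.single_mul_single_same, one_mul, mul_one]
    abel
  have hsum : X = ∑ a, Matrix.single a a (X a a) + ∑ a, ∑ b, (if a < b then pr a b (X a b) else 0) := by
    ext i j
    have e1 : (∑ a, Matrix.single a a (X a a)) i j = if i = j then X i i else 0 := by
      rw [Matrix.sum_apply, Finset.sum_eq_single i]
      · simp [Matrix.single_apply]
      · intro a _ ha; simp [Matrix.single_apply, ha]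
      · simp
    have e2 : (∑ a, ∑ b, (if a < b then pr a b (X a b) else 0)) i j = if i = j then 0 else X i j := by
      rw [Matrix.sum_apply]
      simp_rw [Matrix.sum_apply]
      rcases lt_trichotomy i j with h | h | h
      · rw [Finset.sum_eq_single i, Finset.sum_eq_single j]
        · simp [h, h.ne, h.ne', pr]
        · intro b _ hb
          split_ifs <;> simp [pr, hb, h.ne]
        · simp
        · intro a _ ha
          refine Finset.sum_eq_zero fun b _ => ?_
          split_ifs with hab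
          · simp only [pr, Matrix.add_apply, Matrix.single_apply]
            rw [if_neg (fun e : a = i ∧ b = j => ha e.1), if_neg (fun e : b = i ∧ a = j => lt_asymm (e.1 ▸ e.2 ▸ hab) h), add_zero]
          · simp
        · simp
      · subst h
        rw [if_pos rfl]
        refine Finset.sum_eq_zero fun a _ => Finset.sum_eq_zero fun b _ => ?_
        split_ifs with hab
        · simp only [pr, Matrix.add_apply, Matrix.single_apply]
          rw [if_neg (fun e => hab.ne (e.1.trans e.2.symm)), if_neg (fun e => hab.ne (e.2.trans e.1.symm)), add_zero]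
        · simp
      · rw [Finset.sum_eq_single j, Finset.sum_eq_single i]
        · rw [show X i j = X j i from congrFun (congrFun hX j) i]
          simp [h, h.ne, h.ne', pr]
        · intro b _ hb
          split_ifs <;> simp [pr, hb, h.ne]
        · simp
        · intro a _ ha
          refine Finset.sum_eq_zero fun b _ => ?_
          split_ifs with hab
          · simp only [pr, Matrix.add_apply, Matrix.single_apply]
            rw [if_neg (fun e : a = i ∧ b = j => lt_asymm (e.1 ▸ e.2 ▸ hab) h), if_neg (fun e : b = i ∧ a = j => ha e.2), add_zero]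
          · simp
        · simp
    rw [Matrix.add_apply, e1, e2]
    split_ifs with h
    · subst h; simp
    · simp
  rw [hsum]
  refine P.add_mem (P.sum_mem fun a _ => hD a _) (P.sum_mem fun a _ => P.sum_mem fun b _ => ?_)
  split_ifs with hab
  · exact hO a b _ hab.ne
  · exact P.zero_mem

end Sym

section Coordinates

variable {m : ℕ} {F : Type*} [Field F] [Fintype F] {G : Type*} [Group G] [Finite G] {p : ℕ} [Fact p.Prime] [CharP F p]

local notation "Mm" => Matrix (Fin m) (Fin m) F
local notation "M2" => Matrix (Fin m ⊕ Fin m) (Fin m ⊕ Fin m) F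
local notation "Sp" => Matrix.symplecticGroup (Fin m) F
local notation "SLm" => Matrix.SpecialLinearGroup (Fin m) F
local notation "U" => uniU m F

theorem exists_pow_eq_one {u : Sp} (hu : u ∈ U) : ∃ k, u ^ p ^ k = 1 := by
  obtain ⟨f, -, hf⟩ := CfsgLib.ClassicalLinear.card_field_eq_pow (F := F) p
  have hU : IsPGroup p U := IsPGroup.of_card (n := f * m ^ 2)
    (by rw [card_uniU, Nat.card_eq_fintype_card, hf, pow_mul])
  obtain ⟨k, hk⟩ := hU ⟨u, hu⟩
  exact ⟨k, congrArg Subtype.val hk⟩

variable (π : Matrix.symplecticGroup (Fin m) F →* G)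
  (hker : ∀ a b : Matrix.symplecticGroup (Fin m) F, π a = π b ↔
    ((b : Matrix (Fin m ⊕ Fin m) (Fin m ⊕ Fin m) F) = a ∨ (b : Matrix (Fin m ⊕ Fin m) (Fin m ⊕ Fin m) F) = -a))
include hker

theorem eq_of_proj (hm : 1 ≤ m) {a b : Sp} {i j : ℕ} (ha : a ^ p ^ i = 1) (hb : b ^ p ^ j = 1) (h : π a = π b) :
    a = b := by
  rcases (hker a b).1 h with e | e
  · exact (Subtype.ext e).symm
  refine (Subtype.ext ?_).symm
  rw [e]
  have hN : ∀ {x : Sp} {k : ℕ}, x ^ p ^ k = 1 → k ≤ i + j → x ^ p ^ (i + j) = 1 := fun {x k} hx hk => by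
    obtain ⟨d, hd⟩ := Nat.exists_eq_add_of_le hk
    rw [hd, pow_add, pow_mul, hx, one_pow]
  have ha' := congrArg (fun x : Sp => (x : M2)) (hN ha (by omega))
  have hb' := congrArg (fun x : Sp => (x : M2)) (hN hb (by omega))
  simp only [SubmonoidClass.coe_pow, OneMemClass.coe_one] at ha' hb'
  rw [e, neg_pow, ha', mul_one] at hb'
  rcases (Fact.out : p.Prime).eq_two_or_odd' with h2 | h2
  · subst h2
    ext u v
    rw [Matrix.neg_apply, CharTwo.neg_eq]
  · exfalso
    rw [(h2.pow).neg_one_pow] at hb'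
    have h1 : (-1 : F) = 1 := by
      simpa using congrFun (congrFun hb' (Sum.inl ⟨0, hm⟩)) (Sum.inl ⟨0, hm⟩)
    have h3 : ((2 : ℕ) : F) = 0 := by push_cast; linear_combination -h1
    rw [CharP.cast_eq_zero_iff F p] at h3
    have := Nat.le_of_dvd (by norm_num) h3
    rcases h2 with ⟨k, hk⟩
    have := (Fact.out : p.Prime).two_le
    omega

theorem mem_of_proj (hm : 1 ≤ m) {H : Subgroup Sp} (hH : H ≤ U) {x : Sp} {i : ℕ} (hx : x ^ p ^ i = 1)
    (h : π x ∈ H.map π) : x ∈ H := by
  obtain ⟨u, hu, e⟩ := h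
  obtain ⟨k, hk⟩ := exists_pow_eq_one (p := p) (hH hu)
  exact eq_of_proj π hker hm hk hx e ▸ hu

theorem commute_of_proj (hm : 1 ≤ m) {s r : Sp} {i : ℕ} (hr : r ^ p ^ i = 1) (h : Commute (π s) (π r)) :
    s * r = r * s := by
  have h' : π (s * r * s⁻¹) = π r := by rw [map_mul, map_mul, map_inv, h.eq, mul_inv_cancel_right]
  have := eq_of_proj π hker hm (a := s * r * s⁻¹) (i := i) (j := i)
    (by rw [conj_pow, hr, mul_one, mul_inv_cancel]) hr h'
  rwa [mul_inv_eq_iff_eq_mul] at this

variable (S : Sylow p G) (hS : (S : Subgroup G) = (uniU m F).map π)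
include hS

theorem stronglyClosed_top (hm : 2 ≤ m) (hex : m = 2 → 3 ≤ Fintype.card F) {T : Subgroup G}
    (hT : (Cfsg.groupFusionSystem (S : Subgroup G)).StronglyClosed T) (hne : T ≠ ⊥) : (S : Subgroup G) ≤ T := by
  have hmem : ∀ {u : Sp}, u ∈ U → π u ∈ (S : Subgroup G) := fun hu => hS ▸ ⟨_, hu, rfl⟩
  have hcl : ∀ {u : Sp}, π u ∈ T → ∀ g : Sp, g * u * g⁻¹ ∈ U → π (g * u * g⁻¹) ∈ T := by
    intro u hu g hg
    rw [map_mul, map_mul, map_inv]
    refine mem_of_closed hT hu _ ?_
    rw [← map_inv, ← map_mul, ← map_mul]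
    exact hmem hg
  let i₀ : Fin m := ⟨0, by omega⟩
  let i₁ : Fin m := ⟨1, by omega⟩
  have h01 : i₀ ≠ i₁ := Fin.ne_of_val_ne Nat.zero_ne_one
  obtain ⟨z, hzT, hz1, hzc⟩ := exists_mem_center S hT hne
  obtain ⟨u, hu, rfl⟩ : z ∈ (uniU m F).map π := hS ▸ hT.1 hzT
  obtain ⟨B, hB, hBe, hB0, hB2⟩ := centre_shape hm hu fun w hw => by
    obtain ⟨k, hk⟩ := exists_pow_eq_one (p := p) hw
    exact commute_of_proj π hker (by omega) hk (hzc _ (hmem hw)).symm
  have huB : u = upS B hB := Subtype.ext (by rw [hBe, coe_upS])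
  let P : AddSubgroup Mm :=
    { carrier := {X | ∃ h : Xᵀ = X, π (upS X h) ∈ T}
      zero_mem' := ⟨Matrix.transpose_zero, by rw [upS_zero, map_one]; exact one_mem T⟩
      add_mem' := by
        rintro X Y ⟨hX, hX'⟩ ⟨hY, hY'⟩
        refine ⟨by rw [Matrix.transpose_add, hX, hY], ?_⟩
        rw [← upS_add X Y hX hY, map_mul]
        exact mul_mem hX' hY'
      neg_mem' := by
        rintro X ⟨hX, hX'⟩
        have hn : (-X)ᵀ = -X := by rw [Matrix.transpose_neg, hX]
        refine ⟨hn, ?_⟩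
        have : (upS X hX)⁻¹ = upS (-X) hn := inv_eq_of_mul_eq_one_right (by
          rw [upS_add X (-X) hX hn (by rw [Matrix.transpose_add, hX, hn]),
            upS_congr (add_neg_cancel X) (hS' := Matrix.transpose_zero), upS_zero])
        rw [← this, map_inv]
        exact inv_mem hX' }
  have inv : ∀ (A : SLm) X, X ∈ P → (A : Mm) * X * (A : Mm)ᵀ ∈ P := by
    rintro A X ⟨hX, hX'⟩
    refine ⟨congr_symm _ hX, ?_⟩
    rw [← lev_conj_upS A X hX]
    exact hcl hX' _ (by rw [lev_conj_upS]; exact upS_mem _ _)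
  let w : Fin m → Sp := fun b => upS (Matrix.single b b 1) (single_symm b _) *
    loS (Matrix.single b b (-1)) (single_symm b _) * upS (Matrix.single b b 1) (single_symm b _)
  have hlev : ∀ (a b : Fin m) (hab : a < b) (t : F), pr a b t ∈ P → π (lev (tr hab.ne t)) ∈ T := by
    rintro a b hab t ⟨hX, hX'⟩
    have h : w b * upS (pr a b t) hX * (w b)⁻¹ = lev (tr hab.ne t) :=
      mul_inv_eq_iff_eq_mul.2 (weyl_conj hab.ne t hX)
    rw [← h]
    exact hcl hX' _ (h ▸ lev_mem (tr_mem hab t))
  have hpure : ∀ r : F, r ≠ 0 → pr i₀ i₁ r ∈ P → Matrix.single i₀ i₀ (r * r) + pr i₀ i₁ r ∈ P := by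
    intro r _ hr
    have h01' : i₀ < i₁ := Fin.lt_def.2 Nat.zero_lt_one
    have hA := hlev i₀ i₁ h01' r hr
    set A : SLm := tr h01'.ne r with hAdef
    let E := Matrix.single i₁ i₁ (1 : F)
    have hE : Eᵀ = E := single_symm i₁ _
    have hc : upS E hE * lev A⁻¹ * (upS E hE)⁻¹ ∈ U :=
      mul_mem (mul_mem (upS_mem _ _) (lev_mem (inv_mem (tr_mem h01' r)))) (inv_mem (upS_mem _ _))
    have hmem' : π (lev A * (upS E hE * lev A⁻¹ * (upS E hE)⁻¹)) ∈ T := by
      rw [map_mul]
      refine mul_mem hA (hcl ?_ _ hc)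
      rw [map_inv, map_inv]
      exact inv_mem hA
    have e : (A : Mm) * E * (A : Mm)ᵀ + -E = Matrix.single i₀ i₀ (r * r) + pr i₀ i₁ r := by
      simp only [hAdef, E, coe_tr, Matrix.transvection, pr, Matrix.transpose_add, Matrix.transpose_one,
        Matrix.transpose_single, Matrix.add_mul, Matrix.mul_add, Matrix.one_mul, Matrix.mul_one,
        Matrix.single_mul_single_same, one_mul, mul_one]
      abel
    have hs : (Matrix.single i₀ i₀ (r * r) + pr i₀ i₁ r)ᵀ = Matrix.single i₀ i₀ (r * r) + pr i₀ i₁ r := by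
      rw [Matrix.transpose_add, single_symm, pr_symm]
    refine ⟨hs, ?_⟩
    convert hmem' using 2
    have hn : (-E)ᵀ = -E := by rw [Matrix.transpose_neg, hE]
    have hi : (upS E hE)⁻¹ = upS (-E) hn := inv_eq_of_mul_eq_one_right (by
      rw [upS_add E (-E) hE hn (by rw [Matrix.transpose_add, hE, hn]),
        upS_congr (add_neg_cancel E) (hS' := Matrix.transpose_zero), upS_zero])
    rw [map_inv, ← mul_assoc, ← mul_assoc, lev_conj_upS, hi, upS_add _ _ _ _ (by rw [e]; exact hs)]
    exact upS_congr e.symm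
  have hall : ∀ X : Mm, Xᵀ = X → X ∈ P := by
    refine sym_mem P inv h01 ?_ (s := B i₀ i₀) (r := B i₀ i₁) ?_ ?_ ?_ hpure
    · rcases Nat.lt_or_ge 2 m with h3 | h3
      · exact Or.inl ⟨⟨2, h3⟩, Fin.ne_of_val_ne (by norm_num), Fin.ne_of_val_ne (show (2 : ℕ) ≠ 1 by norm_num)⟩
      · classical
        obtain ⟨d, hd⟩ : ∃ d, d ∉ ({0, 1} : Finset F) := by
          by_contra hc
          push Not at hc
          have := Finset.card_le_card (fun d _ => hc d : (Finset.univ : Finset F) ⊆ {0, 1})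
          have := hex (by omega)
          rw [Finset.card_univ] at *
          have := Finset.card_le_two (a := (0 : F)) (b := 1)
          omega
        simp only [Finset.mem_insert, Finset.mem_singleton, not_or] at hd
        exact Or.inr ⟨d, hd⟩
    · have e : Matrix.single i₀ i₀ (B i₀ i₀) + pr i₀ i₁ (B i₀ i₁) = B := by
        ext a b
        simp only [pr, Matrix.add_apply, Matrix.single_apply]
        by_cases c00 : i₀ = a ∧ i₀ = b
        · obtain ⟨rfl, rfl⟩ := c00
          simp [h01.symm]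
        by_cases c01 : i₀ = a ∧ i₁ = b
        · obtain ⟨rfl, rfl⟩ := c01
          simp [h01, h01.symm]
        by_cases c10 : i₁ = a ∧ i₀ = b
        · obtain ⟨rfl, rfl⟩ := c10
          rw [show B i₁ i₀ = B i₀ i₁ from congrFun (congrFun hB i₀) i₁]
          simp [h01, h01.symm]
        rw [if_neg c00, if_neg c01, if_neg c10, add_zero, add_zero]
        symm
        refine hB0 a b ?_ ?_ ?_
        · exact fun e => c00 ⟨Fin.ext e.1.symm, Fin.ext e.2.symm⟩
        · exact fun e => c01 ⟨Fin.ext e.1.symm, Fin.ext e.2.symm⟩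
        · exact fun e => c10 ⟨Fin.ext e.1.symm, Fin.ext e.2.symm⟩
      rw [e]
      exact ⟨hB, huB ▸ hzT⟩
    · by_contra hc
      push Not at hc
      apply hz1
      have : B = 0 := by
        ext a b
        by_cases ha : (a : ℕ) = 0 ∧ (b : ℕ) = 0
        · rw [show a = i₀ from Fin.ext ha.1, show b = i₀ from Fin.ext ha.2]; exact hc.1
        by_cases h01' : (a : ℕ) = 0 ∧ (b : ℕ) = 1
        · rw [show a = i₀ from Fin.ext h01'.1, show b = i₁ from Fin.ext h01'.2]; exact hc.2
        by_cases h10 : (a : ℕ) = 1 ∧ (b : ℕ) = 0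
        · rw [show a = i₁ from Fin.ext h10.1, show b = i₀ from Fin.ext h10.2,
            show B i₁ i₀ = B i₀ i₁ from congrFun (congrFun hB i₀) i₁]; exact hc.2
        exact hB0 a b ha h01' h10
      rw [huB, upS_congr this (hS' := Matrix.transpose_zero), upS_zero, map_one]
    · exact hB2
  rw [hS]
  rintro _ ⟨v, hv, rfl⟩
  obtain ⟨A, hA, X, hX, rfl⟩ := exists_eq hv
  rw [map_mul]
  obtain ⟨h', hX'⟩ := hall X hX
  refine mul_mem ?_ hX'
  refine ((Subgroup.closure_le (T.comap (π.comp lev))).2 ?_ (mem_closure_tr hA) :)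
  rintro _ ⟨a, b, hab, t, rfl⟩
  exact hlev a b hab t (hall _ (pr_symm a b t))

omit hS hker in
/-- A matrix commuting with enough symmetric matrices. -/
theorem block_shape {l : Fin m} (hl : (l : ℕ) + 1 = m) (hm : 2 ≤ m) {x : Sp}
    (hc : ∀ (X : Mm) (hX : Xᵀ = X), X l l = 0 → x * upS X hX = upS X hX * x) :
    (x : M2).toBlocks₂₁ = 0 ∧ ∃ ε : F, (ε = 1 ∨ ε = -1) ∧
      ∀ i j, j ≤ i → (x : M2).toBlocks₁₁ i j = if i = j then ε else 0 := by
  obtain ⟨a₀, ha₀⟩ : ∃ a₀ : Fin m, a₀ ≠ l := ⟨⟨0, by omega⟩, Fin.ne_of_val_ne (show (0 : ℕ) ≠ l by omega)⟩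
  have key : ∀ (X : Mm) (hX : Xᵀ = X), X l l = 0 →
      (x : M2).toBlocks₁₁ * X = X * (x : M2).toBlocks₂₂ + 0 ∧ X * (x : M2).toBlocks₂₁ = 0 := by
    intro X hX h0
    have h1 := congrArg (fun y : Sp => (y : M2)) (hc X hX h0)
    simp only [Submonoid.coe_mul, coe_upS] at h1
    rw [← Matrix.fromBlocks_toBlocks (x : M2), Matrix.fromBlocks_multiply, Matrix.fromBlocks_multiply] at h1
    obtain ⟨e11, e12, -, -⟩ := Matrix.fromBlocks_inj.1 h1
    simp at e11 e12
    exact ⟨by rw [add_zero]; linear_combination (norm := abel) e12, e11⟩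
  have h21 : (x : M2).toBlocks₂₁ = 0 := by
    ext i j
    by_cases hi : i = l
    · subst hi
      have h := congrFun (congrFun (key (pr a₀ i 1) (pr_symm a₀ i 1) (by simp [pr, ha₀])).2 a₀) j
      simpa [pr, Matrix.add_mul, ha₀] using h
    · have h := congrFun (congrFun (key (Matrix.single i i 1) (single_symm i 1) (by simp [hi])).2 i) j
      simpa using h
  obtain ⟨hAD, -⟩ := blocks_of_mem h21
  set A := (x : M2).toBlocks₁₁ with hA
  have hcong : ∀ (X : Mm), Xᵀ = X → X l l = 0 → A * X * Aᵀ = X := fun X hX h0 => by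
    rw [(key X hX h0).1, add_zero, Matrix.mul_assoc, mul_eq_one_comm.1 hAD, Matrix.mul_one]
  have hcol : ∀ a, a ≠ l → A a a * A a a = 1 ∧ ∀ i, i ≠ a → A i a = 0 := by
    intro a ha
    have h := fun i j => congrFun (congrFun (hcong (Matrix.single a a 1) (single_symm a 1) (by simp [ha])) i) j
    simp only [congr_single_apply, mul_one, Matrix.single_apply] at h
    refine ⟨by simpa using h a a, fun i hi => mul_self_eq_zero.1 ?_⟩
    simpa [hi, Ne.symm hi] using h i i
  have hlast : ∀ a, a ≠ l → A l l * A a a = 1 ∧ ∀ i, i ≠ l → i ≠ a → A i l = 0 := by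
    intro a ha
    obtain ⟨h1, h0⟩ := hcol a ha
    have hne : A a a ≠ 0 := fun e => by simp [e] at h1
    have hcs : ∀ u v i j : Fin m, (A * Matrix.single u v (1 : F) * Aᵀ) i j = A i u * A j v := fun u v i j => by
      rw [Matrix.mul_apply, Finset.sum_eq_single v]
      · rw [Matrix.mul_single_apply_same, mul_one, Matrix.transpose_apply]
      · intro k _ hk; rw [Matrix.mul_single_apply_of_ne (hbj := hk), zero_mul]
      · simp
    have h : ∀ i, A i a * A a l + A i l * A a a = pr a l 1 i a := fun i => by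
      rw [← congrFun (congrFun (hcong (pr a l 1) (pr_symm a l 1) (by simp [pr, ha])) i) a]
      simp only [pr, Matrix.mul_add, Matrix.add_mul, Matrix.add_apply, hcs]
    refine ⟨?_, fun i hil hia => ?_⟩
    · have := h l
      rw [h0 l (Ne.symm ha)] at this
      simpa [pr, ha, Ne.symm ha] using this
    · have := h i
      rw [h0 i hia] at this
      simpa [pr, hne, hil, Ne.symm hil, hia, Ne.symm hia] using this
  have hdiag : ∀ i, A i i = A a₀ a₀ := by
    intro i
    obtain ⟨h1, -⟩ := hcol a₀ ha₀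
    obtain ⟨h2, -⟩ := hlast a₀ ha₀
    by_cases hi : i = l
    · subst hi
      calc A i i = A i i * (A a₀ a₀ * A a₀ a₀) := by rw [h1, mul_one]
        _ = _ := by rw [← mul_assoc, h2, one_mul]
    · obtain ⟨h3, -⟩ := hlast i hi
      obtain ⟨h4, -⟩ := hcol i hi
      calc A i i = (A l l * A a₀ a₀) * A i i := by rw [h2, one_mul]
        _ = A a₀ a₀ * (A l l * A i i) := by ring
        _ = _ := by rw [h3, mul_one]
  refine ⟨h21, A a₀ a₀, ?_, fun i j hji => ?_⟩
  · have h1 := (hcol a₀ ha₀).1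
    rwa [← pow_two, sq_eq_one_iff] at h1
  · split_ifs with h
    · subst h; exact hdiag i
    · refine (hcol j ?_).2 i h
      intro e
      subst e
      exact h (le_antisymm (Fin.le_def.2 (by have := i.2; omega)) hji)

/-- The centralizer of the minimal parabolic radical. -/
theorem radL_centric (hπ : Function.Surjective π) (hm : 2 ≤ m) {l : Fin m} (hl : (l : ℕ) + 1 = m) :
    (Cfsg.groupFusionSystem (S : Subgroup G)).IsCentric ((radL l hl).map π) := by
  refine isCentric_of_centralizer_le (hS ▸ Subgroup.map_mono fun s hs => hs.1) fun g hg => ?_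
  obtain ⟨x, rfl⟩ := hπ g
  have hc : ∀ r ∈ radL l hl, x * r = r * x := fun r hr => by
    obtain ⟨k, hk⟩ := exists_pow_eq_one (p := p) hr.1
    exact commute_of_proj π hker (by omega) hk (hg _ ⟨r, hr, rfl⟩)
  obtain ⟨h21, ε, hε, hA⟩ := block_shape hl hm fun X hX h0 => hc _ (upS_mem_radL hl hX h0)
  let nneg : Sp := ⟨-1, by
    rw [SymplecticGroup.mem_iff']; simp⟩
  obtain ⟨y, hy, hyU, hyc⟩ : ∃ y, π y = π x ∧ y ∈ U ∧ ∀ r ∈ radL l hl, y * r = r * y := by
    rcases hε with rfl | rfl
    · exact ⟨x, rfl, mem_uniU.2 ⟨h21, hA⟩, hc⟩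
    refine ⟨nneg * x, ?_, ?_, fun r hr => ?_⟩
    · refine (hker _ _).2 (Or.inr ?_)
      show (x : M2) = -((-1 : M2) * (x : M2))
      simp
    · have hcoe : ((nneg * x : Sp) : M2) = -(x : M2) := by
        show (-1 : M2) * (x : M2) = _; simp
      rw [mem_uniU, hcoe]
      refine ⟨?_, fun i j hji => ?_⟩
      · ext i j
        show -((x : M2).toBlocks₂₁ i j) = 0
        rw [h21]; simp
      · show -((x : M2).toBlocks₁₁ i j) = _
        rw [hA i j hji]
        split_ifs <;> simp
    · refine Subtype.ext ?_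
      have h := congrArg (fun z : Sp => (z : M2)) (hc r hr)
      simp only [Submonoid.coe_mul] at h
      show (-1 : M2) * (x : M2) * (r : M2) = (r : M2) * ((-1 : M2) * (x : M2))
      simp [h]
  refine ⟨y, ?_, hy⟩
  obtain ⟨A, hA', B, hB, rfl⟩ := exists_eq hyU
  rw [SetLike.mem_coe, mem_radL_mul hl hA']
  let i₀ : Fin m := ⟨0, by omega⟩
  have hlt : i₀ < l := Fin.lt_def.2 (show 0 < (l : ℕ) by omega)
  have h := congrArg (fun z : Sp => (z : M2)) (hyc _ (lev_mem_radL hl (tr_mem hlt 1)))
  set N : SLm := tr hlt.ne 1 with hN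
  simp only [Submonoid.coe_mul, coe_lev, coe_upS, Matrix.fromBlocks_multiply] at h
  obtain ⟨e11, e12, -, -⟩ := Matrix.fromBlocks_inj.1 h
  simp [-Matrix.SpecialLinearGroup.coe_inv] at e11 e12
  have e : B = (N : Mm) * B * (N : Mm)ᵀ := by
    have h2 : (A : Mm) * B * ((N⁻¹ : SLm) : Mm)ᵀ = (A : Mm) * ((N : Mm) * B) := by
      rw [e12, ← Matrix.mul_assoc, ← e11, Matrix.mul_assoc]
    have h3 := congrArg (((A⁻¹ : SLm) : Mm) * ·) h2
    simp only [← Matrix.mul_assoc, sl_inv_mul, Matrix.one_mul] at h3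
    calc B = B * (((N⁻¹ : SLm) : Mm)ᵀ * (N : Mm)ᵀ) := by
          rw [← Matrix.transpose_mul, sl_mul_inv, Matrix.transpose_one, Matrix.mul_one]
      _ = _ := by rw [← Matrix.mul_assoc, h3]
  have h0 := congrFun (congrFun e i₀) l
  simp only [hN, coe_tr, Matrix.transvection, Matrix.transpose_add, Matrix.transpose_one, Matrix.transpose_single,
    Matrix.add_mul, Matrix.mul_add, Matrix.one_mul, Matrix.mul_one, Matrix.add_apply, Matrix.single_mul_apply_same,
    Matrix.mul_single_apply_of_ne (hbj := hlt.ne'), one_mul, add_zero] at h0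
  simpa using h0

theorem upS_range_centric (hπ : Function.Surjective π) (hm : 2 ≤ m) {R : Subgroup Sp}
    (hR : ∀ s, s ∈ R ↔ ∃ (X : Mm) (hX : Xᵀ = X), s = upS X hX) :
    (Cfsg.groupFusionSystem (S : Subgroup G)).IsCentric (R.map π) := by
  have hRU : R ≤ uniU m F := fun s hs => by
    obtain ⟨X, hX, rfl⟩ := (hR s).1 hs; exact upS_mem _ _
  refine isCentric_of_centralizer_le (hS ▸ Subgroup.map_mono hRU) fun g hg => ?_
  obtain ⟨x, rfl⟩ := hπ g
  let l : Fin m := ⟨m - 1, by omega⟩
  have hl : (l : ℕ) + 1 = m := by simp only [l]; omega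
  have hc : ∀ (X : Mm) (hX : Xᵀ = X), x * upS X hX = upS X hX * x := fun X hX => by
    obtain ⟨k, hk⟩ := exists_pow_eq_one (p := p) (upS_mem X hX)
    exact commute_of_proj π hker (by omega) hk (hg _ ⟨_, (hR _).2 ⟨X, hX, rfl⟩, rfl⟩)
  obtain ⟨h21, ε, hε, hA⟩ := block_shape hl hm fun X hX _ => hc X hX
  obtain ⟨hAD, hBD⟩ := blocks_of_mem h21
  have hεε : ε * ε = 1 := by rcases hε with rfl | rfl <;> ring
  have key : ∀ (X : Mm), Xᵀ = X → (x : M2).toBlocks₁₁ * X * (x : M2).toBlocks₁₁ᵀ = X := by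
    intro X hX
    have h1 := congrArg (fun y : Sp => (y : M2)) (hc X hX)
    simp only [Submonoid.coe_mul, coe_upS] at h1
    rw [← Matrix.fromBlocks_toBlocks (x : M2), Matrix.fromBlocks_multiply, Matrix.fromBlocks_multiply] at h1
    obtain ⟨-, e12, -, -⟩ := Matrix.fromBlocks_inj.1 h1
    simp at e12
    have e : (x : M2).toBlocks₁₁ * X = X * (x : M2).toBlocks₂₂ := by linear_combination (norm := abel) e12
    rw [e, Matrix.mul_assoc, mul_eq_one_comm.1 hAD, Matrix.mul_one]
  have hA1 : (x : M2).toBlocks₁₁ = ε • (1 : Mm) := by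
    ext i j
    rw [Matrix.smul_apply, Matrix.one_apply, smul_eq_mul, mul_ite, mul_one, mul_zero]
    rcases le_or_gt j i with h | h
    · exact hA i j h
    · rw [if_neg h.ne]
      have e := congrFun (congrFun (key (Matrix.single j j 1) (single_symm j 1)) i) i
      rw [congr_single_apply, Matrix.single_apply, if_neg (fun e : j = i ∧ j = i => h.ne' e.1), mul_one] at e
      exact mul_self_eq_zero.1 e
  have hD1 : (x : M2).toBlocks₂₂ = ε • (1 : Mm) := by
    rw [hA1, Matrix.transpose_smul, Matrix.transpose_one, Matrix.smul_mul, Matrix.one_mul] at hAD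
    calc (x : M2).toBlocks₂₂ = (ε * ε) • (x : M2).toBlocks₂₂ := by rw [hεε, one_smul]
      _ = _ := by rw [← smul_smul, hAD]
  have hB : (ε • (x : M2).toBlocks₁₂)ᵀ = ε • (x : M2).toBlocks₁₂ := by
    rw [hD1, Matrix.transpose_smul, Matrix.transpose_one, Matrix.smul_mul, Matrix.one_mul, Matrix.mul_smul,
      Matrix.mul_one] at hBD
    rw [Matrix.transpose_smul]
    exact hBD.symm
  refine ⟨upS _ hB, (hR _).2 ⟨_, hB, rfl⟩, ?_⟩
  have hxe : (x : M2) = ε • ((upS _ hB : Sp) : M2) := by
    conv_lhs => rw [← Matrix.fromBlocks_toBlocks (x : M2)]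
    rw [coe_upS, Matrix.fromBlocks_smul, h21, hA1, hD1, smul_smul, hεε, one_smul, smul_zero]
  rcases hε with rfl | rfl
  · exact congrArg π (Subtype.ext (hxe.trans (one_smul _ _)).symm)
  · exact (hker _ _).2 (Or.inr (hxe.trans (neg_one_smul _ _)))

theorem normalizer_le (hπ : Function.Surjective π) (hm : 2 ≤ m) :
    Subgroup.normalizer ((S : Subgroup G) : Set G) ≤ (S : Subgroup G) ⊔ Subgroup.closure
      {t | t ∈ Subgroup.normalizer ((S : Subgroup G) : Set G) ∧ ∃ R : Subgroup G,
        (Cfsg.groupFusionSystem (S : Subgroup G)).IsCentric R ∧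
        (S : Subgroup G) ≤ Subgroup.normalizer (R : Set G) ∧ t ∈ pNorm p R} := by
  let l : Fin m := ⟨m - 1, by omega⟩
  have hl : (l : ℕ) + 1 = m := by simp only [l]; omega
  let R₁ : Subgroup Sp :=
    { carrier := {s | ∃ (X : Mm) (hX : Xᵀ = X), s = upS X hX}
      one_mem' := ⟨0, Matrix.transpose_zero, (upS_zero _).symm⟩
      mul_mem' := by
        rintro _ _ ⟨X, hX, rfl⟩ ⟨Y, hY, rfl⟩
        exact ⟨X + Y, by rw [Matrix.transpose_add, hX, hY], upS_add ..⟩
      inv_mem' := by
        rintro _ ⟨X, hX, rfl⟩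
        refine ⟨-X, by rw [Matrix.transpose_neg, hX], inv_eq_of_mul_eq_one_right ?_⟩
        rw [upS_add _ _ _ _ (by rw [add_neg_cancel, Matrix.transpose_zero]),
          upS_congr (add_neg_cancel X) (hS' := Matrix.transpose_zero), upS_zero] }
  have hR1 : ∀ s, s ∈ R₁ ↔ ∃ (X : Mm) (hX : Xᵀ = X), s = upS X hX := fun _ => Iff.rfl
  have hmemN : ∀ {H : Subgroup Sp} {s : Sp}, (∀ r ∈ H, s * r * s⁻¹ ∈ H) →
      π s ∈ Subgroup.normalizer ((H.map π : Subgroup G) : Set G) := by
    intro H s h
    refine mem_normalizer_of_conj_mem ?_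
    rintro _ ⟨r, hr, rfl⟩
    exact ⟨_, h r hr, by rw [map_mul, map_mul, map_inv]⟩
  have hlevN : ∀ A : SLm, π (lev A) ∈ Subgroup.normalizer ((R₁.map π : Subgroup G) : Set G) := fun A =>
    hmemN fun r hr => by obtain ⟨X, hX, rfl⟩ := hr; exact ⟨_, congr_symm _ hX, lev_conj_upS A X hX⟩
  have hS1 : (S : Subgroup G) ≤ Subgroup.normalizer ((R₁.map π : Subgroup G) : Set G) := by
    rw [hS]
    rintro _ ⟨u, hu, rfl⟩
    obtain ⟨A, hA, X, hX, rfl⟩ := exists_eq hu
    rw [map_mul]
    exact mul_mem (hlevN A) (Subgroup.le_normalizer ⟨_, ⟨X, hX, rfl⟩, rfl⟩)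
  have hS2 : (S : Subgroup G) ≤ Subgroup.normalizer (((radL l hl).map π : Subgroup G) : Set G) := by
    rw [hS]
    rintro _ ⟨u, hu, rfl⟩
    obtain ⟨A, hA, X, hX, rfl⟩ := exists_eq hu
    set E := Matrix.single l l (X l l)
    have hd : (X - E)ᵀ = X - E := by rw [Matrix.transpose_sub, hX, single_symm]
    have hX' : upS X hX = upS (X - E) hd * upS E (single_symm l _) := by
      rw [upS_add _ _ _ _ (by rw [sub_add_cancel, hX])]
      exact upS_congr (sub_add_cancel X E).symm
    rw [map_mul, hX', map_mul]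
    refine mul_mem (Subgroup.le_normalizer ⟨_, lev_mem_radL hl hA, rfl⟩)
      (mul_mem (Subgroup.le_normalizer ⟨_, upS_mem_radL hl hd (by simp [E]), rfl⟩) ?_)
    exact hmemN fun r hr => upS_ll_conj hl hr.1 _ hr
  have htdN : ∀ (d : Fin m → F) hd, π (td d hd) ∈ Subgroup.normalizer ((S : Subgroup G) : Set G) := fun d hd => by
    rw [hS]; exact hmemN fun r hr => td_conj_uniU d hd hr
  intro g hg
  obtain ⟨k, rfl⟩ := hπ g
  have hconj : ∀ u ∈ uniU m F, k * u * k⁻¹ ∈ uniU m F := by
    intro u hu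
    obtain ⟨i, hi⟩ := exists_pow_eq_one (p := p) hu
    refine mem_of_proj π hker (by omega) le_rfl (i := i) (by rw [conj_pow, hi, mul_one, mul_inv_cancel]) ?_
    rw [← hS, map_mul, map_mul, map_inv]
    exact (Subgroup.mem_normalizer_iff.1 hg _).1 (hS ▸ ⟨u, hu, rfl⟩)
  set A := (k : M2).toBlocks₁₁ with hA
  set B := (k : M2).toBlocks₁₂ with hB
  set C := (k : M2).toBlocks₂₁ with hC
  set D := (k : M2).toBlocks₂₂ with hD
  have hkM : (k : M2) = Matrix.fromBlocks A B C D := (Matrix.fromBlocks_toBlocks _).symm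
  have hkinv : ((k⁻¹ : Sp) : M2) = Matrix.fromBlocks Dᵀ (-Bᵀ) (-Cᵀ) Aᵀ := by
    rw [SymplecticGroup.coe_inv, hkM, Matrix.J, Matrix.fromBlocks_transpose, Matrix.fromBlocks_neg,
      Matrix.fromBlocks_multiply, Matrix.fromBlocks_multiply]
    simp
  have hC0 : C = 0 := by
    have h1 := congrArg (fun y : Sp => (y : M2)) (mul_inv_cancel k)
    simp only [Submonoid.coe_mul, OneMemClass.coe_one, hkinv, hkM, Matrix.fromBlocks_multiply,
      ← Matrix.fromBlocks_one] at h1
    obtain ⟨-, -, e21, -⟩ := Matrix.fromBlocks_inj.1 h1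
    ext i a
    have h2 := (mem_uniU.1 (hconj _ (upS_mem (Matrix.single a a 1) (single_symm a _)))).1
    rw [Submonoid.coe_mul, Submonoid.coe_mul, coe_upS, hkinv, hkM, Matrix.fromBlocks_multiply,
      Matrix.fromBlocks_multiply, Matrix.toBlocks_fromBlocks₂₁] at h2
    have h3 : C * Matrix.single a a 1 * Cᵀ = 0 := by
      simp [Matrix.add_mul, Matrix.mul_assoc] at e21 h2 ⊢
      linear_combination (norm := abel) e21 - h2
    have h4 := congrFun (congrFun h3 i) i
    rw [congr_single_apply, mul_one, Matrix.zero_apply] at h4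
    exact mul_self_eq_zero.1 h4
  have hk21 : (k : M2).toBlocks₂₁ = 0 := hC0
  obtain ⟨hAD, -⟩ := blocks_of_mem hk21
  have hdet : A.det ≠ 0 := by
    intro e
    have := congrArg Matrix.det hAD
    rw [Matrix.det_mul, Matrix.det_transpose, ← hA, e, zero_mul, Matrix.det_one] at this
    exact zero_ne_one this
  have htri : A.IsUpperTriangular := by
    let i₀ : Fin m := ⟨0, by omega⟩
    let δ : Fin m → F := Function.update 1 i₀ A.det⁻¹
    have hδ : ∀ i, δ i ≠ 0 := fun i => by
      by_cases h : i = i₀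
      · subst h; simp [δ, hdet]
      · simp [δ, h]
    have hs : (A * Matrix.diagonal δ).det = 1 := by
      rw [Matrix.det_mul, Matrix.det_diagonal, Finset.prod_update_of_mem (Finset.mem_univ i₀)]
      simp [hdet]
    let s : SLm := ⟨A * Matrix.diagonal δ, hs⟩
    have hs' : (s : Matrix (Fin m) (Fin m) F).IsUpperTriangular := by
      refine triangular_of_conj fun a b hab => ?_
      obtain ⟨hv21, hv⟩ := mem_uniU.1 (hconj _ (lev_mem (tr_mem hab (δ a * (δ b)⁻¹))))
      set v := k * lev (tr hab.ne (δ a * (δ b)⁻¹)) * k⁻¹ with hv'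
      have h1 := congrArg (fun y : Sp => (y : M2)) (show v * k = k * lev (tr hab.ne (δ a * (δ b)⁻¹)) by
        rw [hv', inv_mul_cancel_right])
      simp only [Submonoid.coe_mul, coe_lev] at h1
      rw [← Matrix.fromBlocks_toBlocks (v : M2), hkM, hC0, Matrix.fromBlocks_multiply,
        Matrix.fromBlocks_multiply] at h1
      obtain ⟨e11, -, -, -⟩ := Matrix.fromBlocks_inj.1 h1
      simp only [Matrix.mul_zero, add_zero, Matrix.zero_mul] at e11
      have e : ((s * tr hab.ne 1 : SLm) : Mm) = (v : M2).toBlocks₁₁ * (s : Mm) := by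
        show A * Matrix.diagonal δ * _ = _ * (A * Matrix.diagonal δ)
        rw [← Matrix.mul_assoc, e11, Matrix.mul_assoc, Matrix.mul_assoc]
        congr 1
        ext i j
        rw [Matrix.diagonal_mul, Matrix.mul_diagonal, tr_apply, tr_apply]
        by_cases h : a = i ∧ b = j
        · obtain ⟨rfl, rfl⟩ := h
          simp [hab.ne]
          field_simp [hδ b]
        · simp [h]
          by_cases hij : i = j
          · subst hij; simp
          · simp [hij]
      rw [Matrix.SpecialLinearGroup.coe_mul, e, Matrix.mul_assoc, sl_mul_inv, Matrix.mul_one]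
      intro i j hji
      exact (hv i j (le_of_lt hji)).trans (if_neg (ne_of_gt hji))
    intro i j hji
    have h := hs' hji
    rw [show (s : Mm) i j = A i j * δ j from Matrix.mul_diagonal ..] at h
    exact (mul_eq_zero.1 h).resolve_right (hδ j)
  have hd : ∀ i, A i i ≠ 0 := fun i e => hdet (by
    rw [Matrix.det_of_isUpperTriangular htri]; exact Finset.prod_eq_zero (Finset.mem_univ i) e)
  have hu : (td _ hd)⁻¹ * k ∈ uniU m F := by
    have hi : (td _ hd)⁻¹ = td (fun i => (A i i)⁻¹) fun i => inv_ne_zero (hd i) :=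
      inv_eq_of_mul_eq_one_right (Subtype.ext (by
        rw [Submonoid.coe_mul, coe_td, coe_td, Matrix.fromBlocks_multiply, OneMemClass.coe_one,
          ← Matrix.fromBlocks_one]
        simp [hd]))
    rw [hi, mem_uniU, Submonoid.coe_mul, coe_td, hkM, hC0, Matrix.fromBlocks_multiply,
      Matrix.toBlocks_fromBlocks₂₁, Matrix.toBlocks_fromBlocks₁₁]
    refine ⟨by simp, fun i j hji => ?_⟩
    rw [Matrix.mul_zero, add_zero, Matrix.diagonal_mul]
    by_cases h : i = j
    · subst h; simp [hd]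
    · rw [htri (lt_of_le_of_ne hji (Ne.symm h)), mul_zero, if_neg h]
  obtain ⟨d', hd', D', hD0, hD'', hsplit⟩ := td_split (l := l) _ hd
  rw [show k = td _ hd * ((td _ hd)⁻¹ * k) by rw [mul_inv_cancel_left], map_mul]
  refine mul_mem ?_ (Subgroup.mem_sup_left (hS ▸ ⟨_, hu, rfl⟩))
  refine Subgroup.mem_sup_right ?_
  rw [hsplit, map_mul]
  refine mul_mem (Subgroup.subset_closure ⟨?_, _, upS_range_centric π hker S hS hπ hm hR1, hS1, ?_⟩)
    (Subgroup.subset_closure ⟨htdN _ _, _, radL_centric π hker S hS hπ hm hl, hS2, ?_⟩)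
  · have : π (lev (dg d' hd')) = π (td _ hd) * (π (td _ hD''))⁻¹ := by rw [hsplit, map_mul]; group
    rw [this]
    exact mul_mem (htdN _ _) (inv_mem (htdN _ _))
  · have htr : ∀ {a b : Fin m} (hab : a ≠ b) (t : F), π (lev (tr hab t)) ∈ pNorm p (R₁.map π) := fun hab t =>
      mem_pNorm (hlevN _) (k := 1) (by rw [← map_pow, ← map_pow, tr_pow_char, map_one, map_one])
    refine ((Subgroup.closure_le ((pNorm p (R₁.map π)).comap (π.comp lev))).2 ?_ (mem_closure_hvec d' hd') :)
    rintro _ ⟨a, b, c, hab, hc, -, rfl⟩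
    show π (lev (dg (hvec a b c) (prod_hvec hab hc))) ∈ pNorm p (R₁.map π)
    rw [hvec_eq hab hc]
    simp only [map_mul]
    exact mul_mem (mul_mem (mul_mem (htr _ _) (htr _ _)) (htr _ _)) (htr _ _)
  · have hx : ∀ t, π (upS (Matrix.single l l t) (single_symm l t)) ∈ pNorm p ((radL l hl).map π) := fun t =>
      mem_pNorm (hmemN fun r hr => upS_ll_conj hl hr.1 t hr) (k := 1) (by rw [← map_pow, upS_pow_char, map_one])
    have hy : ∀ t, π (loS (Matrix.single l l t) (single_symm l t)) ∈ pNorm p ((radL l hl).map π) := fun t =>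
      mem_pNorm (hmemN fun r hr => loS_conj hl hr t) (k := 1) (by rw [← map_pow, loS_pow_char, map_one])
    rw [td_eq D' hD0]
    simp only [map_mul]
    exact mul_mem (mul_mem (mul_mem (hy _) (hx _)) (hy _)) (hx _)

theorem simple_of_coordinates (hπ : Function.Surjective π) (hm : 2 ≤ m) (hex : m = 2 → 3 ≤ Fintype.card F) :
    (Cfsg.groupFusionSystem (S : Subgroup G)).IsSimple p := by
  refine isSimple_of_criterion S (fun h => ?_) (fun T hT hne => stronglyClosed_top π hker S hS hm hex hT hne)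
    (normalizer_le π hker S hS hπ hm)
  let i₀ : Fin m := ⟨0, by omega⟩
  have h1 : π (upS (Matrix.single i₀ i₀ (1 : F)) (single_symm i₀ _)) ∈ (S : Subgroup G) := hS ▸ ⟨_, upS_mem _ _, rfl⟩
  rw [h, Subgroup.mem_bot, ← map_one π] at h1
  obtain ⟨k, hk⟩ := exists_pow_eq_one (p := p) (upS_mem (Matrix.single i₀ i₀ (1 : F)) (single_symm i₀ _))
  have h2 := congrArg (fun y : Sp => (y : M2) (Sum.inl i₀) (Sum.inr i₀))
    (eq_of_proj π hker (by omega) hk (one_pow (p ^ k)) h1)
  simp [coe_upS] at h2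

end Coordinates

end CfsgLib.InvChar.PSpFusion
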