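/-
InvChar: a faithful action of the symmetric group of degree six on an elementary abelian
normal 2-subgroup of order at most 16 yields an elementary abelian section of order 32.
-/
import Mathlib
import Cfsg.Prelude.Def_CaseTheorems

set_option autoImplicit false

namespace CfsgLib.InvChar.SymSixSection

section Action

variable {M : Type*} [CommGroup M] {S : Type*} [Group S] (α : S →* MulAut M)

/-- `v` maps to `α s v * v`. -/
def disp (s : S) (v : M) : M := α s v * v

variable {α}

theorem act_mul (s t : S) (v : M) : α (s * t) v = α s (α t v) := by rw [map_mul]; rfl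

theorem act_one (v : M) : α 1 v = v := by rw [map_one]; rfl

variable (hexp : ∀ v : M, v * v = 1)
include hexp

theorem act_eq (s : S) (v : M) : α s v = v * disp α s v := by
  rw [disp, mul_left_comm, hexp, mul_one]

omit hexp in
theorem disp_mul (s : S) (v w : M) : disp α s (v * w) = disp α s v * disp α s w := by
  rw [disp, disp, disp, map_mul, mul_mul_mul_comm]

theorem disp_eq_one {s : S} {v : M} : disp α s v = 1 ↔ α s v = v := by
  constructor
  · intro h; rw [act_eq hexp, h, mul_one]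
  · intro h; rw [disp, h, hexp]

theorem mul_eq_one_eq {v w : M} (h : v * w = 1) : v = w := by
  have := congrArg (· * w) h
  simpa [mul_assoc, hexp] using this

variable (α) in
/-- `s` acts as a transvection with centre `a`. -/
def IsTv (s : S) (a : M) : Prop :=
  a ≠ 1 ∧ α s a = a ∧ (∀ v, disp α s v = 1 ∨ disp α s v = a) ∧ ∃ v, disp α s v = a

theorem IsTv.conj {s : S} {a : M} (h : IsTv α s a) (g : S) : IsTv α (g * s * g⁻¹) (α g a) := by
  have hd : ∀ v, disp α (g * s * g⁻¹) v = α g (disp α s (α g⁻¹ v)) := fun v => by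
    rw [disp, act_mul, act_mul, disp, map_mul, ← act_mul g g⁻¹ v, mul_inv_cancel, act_one]
  obtain ⟨h1, h2, h3, v, hv⟩ := h
  refine ⟨fun e => h1 ((α g).injective (e.trans (map_one _).symm)), ?_, fun w => ?_, α g v, ?_⟩
  · rw [act_mul, act_mul, ← act_mul g⁻¹ g, inv_mul_cancel, act_one, h2]
  · rcases h3 (α g⁻¹ w) with h | h
    · left; rw [hd, h, map_one]
    · right; rw [hd, h]
  · rw [hd, ← act_mul g⁻¹ g, inv_mul_cancel, act_one, hv]

/-- commuting transvections fix each other's centres -/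
theorem IsTv.fix {s t : S} {a b : M} (hs : IsTv α s a) (ht : IsTv α t b) (hc : s * t = t * s) :
    α s b = b := by
  obtain ⟨h1, h2, h3, v, hv⟩ := ht
  have : disp α t (α s v) = α s b := by
    rw [disp, ← act_mul, ← hc, act_mul, ← map_mul]
    exact congrArg (α s) hv
  rcases h3 (α s v) with h | h
  · exact absurd ((α s).injective ((this.symm.trans h).trans (map_one _).symm)) h1
  · exact this.symm.trans h

omit hexp in
theorem IsTv.fix_disp {s t : S} {b : M} (ht : IsTv α t b) (hb : α s b = b) (v : M) :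
    α s (disp α t v) = disp α t v := by
  rcases ht.2.2.1 v with h | h <;> rw [h]
  · exact map_one _
  · exact hb

theorem commute_of_fix (hα : Function.Injective α) {s t : S} {a b : M} (hs : IsTv α s a)
    (ht : IsTv α t b) (hsb : α s b = b) (hta : α t a = a) : s * t = t * s := by
  refine hα (MulEquiv.ext fun v => ?_)
  rw [act_mul, act_mul]
  conv_lhs => rw [act_eq hexp t v, map_mul, ht.fix_disp hsb, act_eq hexp s v]
  conv_rhs => rw [act_eq hexp s v, map_mul, hs.fix_disp hta, act_eq hexp t v]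
  rw [mul_right_comm]

theorem not_fixed_mul {s : S} {a v w : M} (hs : IsTv α s a) (hv : α s v ≠ v) (hw : α s w ≠ w) :
    α s (v * w) = v * w := by
  rw [Ne, ← disp_eq_one hexp] at hv hw
  rw [← disp_eq_one hexp]
  rw [disp_mul, (hs.2.2.1 v).resolve_left hv, (hs.2.2.1 w).resolve_left hw, hexp]

theorem exists_fixed_ne {s t : S} {a b : M} (hs : IsTv α s a) (ht : IsTv α t b)
    (hne : ¬ ∀ v, α s v = v ↔ α t v = v) : ∃ v, α s v = v ∧ α t v ≠ v := by
  by_contra hc
  push Not at hc
  refine hne fun v => ⟨hc v, fun h => ?_⟩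
  by_contra hv
  obtain ⟨w, hw⟩ := ht.2.2.2
  have hwt : α t w ≠ w := fun e => ht.1 (hw.symm.trans ((disp_eq_one hexp).2 e))
  have hws : α s w ≠ w := fun e => hwt (hc w e)
  have := hc _ (not_fixed_mul hexp hs hv hws)
  rw [map_mul, h] at this
  exact hwt (mul_left_cancel this)

/-- two commuting transvections with distinct centres and axes -/
theorem common_fixed [Finite M] (hcard : Nat.card M ≤ 16) {s t : S} {a b : M} (hs : IsTv α s a) (ht : IsTv α t b)
    (hc : s * t = t * s) (hab : a ≠ b) (hne : ¬ ∀ v, α s v = v ↔ α t v = v) :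
    Nat.card M = 16 ∧ ∀ v, α s v = v → α t v = v → v = 1 ∨ v = a ∨ v = b ∨ v = a * b := by
  classical
  haveI := Fintype.ofFinite M
  obtain ⟨x, hxs, hxt⟩ := exists_fixed_ne hexp hs ht hne
  obtain ⟨y, hyt, hys⟩ := exists_fixed_ne hexp ht hs (fun h => hne fun v => (h v).symm)
  have hsb := hs.fix hexp ht hc
  have hta := ht.fix hexp hs hc.symm
  let F : Finset M := Finset.univ.filter fun v => α s v = v ∧ α t v = v
  let L : Finset M := {1, a, b, a * b}
  have hLF : L ⊆ F := by
    intro v hv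
    simp only [L, Finset.mem_insert, Finset.mem_singleton] at hv
    rcases hv with rfl | rfl | rfl | rfl <;>
      simp [F, hs.2.1, ht.2.1, hsb, hta, map_mul]
  have hL : L.card = 4 := by
    have h1 := hs.1
    have h2 := ht.1
    have h3 : a * b ≠ 1 := fun e => hab (mul_eq_one_eq hexp e)
    have h4 : a ≠ a * b := fun e => h2 (mul_left_cancel (a := a) (by rw [mul_one]; exact e.symm))
    have h5 : b ≠ a * b := fun e => h1 (mul_right_cancel (b := b) (by rw [one_mul]; exact e.symm))
    simp only [L]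
    rw [Finset.card_insert_of_notMem, Finset.card_insert_of_notMem,
      Finset.card_insert_of_notMem, Finset.card_singleton] <;>
      simp [hab, h1.symm, h2.symm, h3.symm, h4, h5]
  have hbound : F.card * 4 ≤ Nat.card M := by
    let g : {v // v ∈ F} × (Bool × Bool) → M := fun p =>
      p.1.1 * ((if p.2.1 then x else 1) * (if p.2.2 then y else 1))
    have hg : Function.Injective g := by
      rintro ⟨⟨v, hv⟩, i, j⟩ ⟨⟨w, hw⟩, k, l⟩ h
      simp only [F, Finset.mem_filter, Finset.mem_univ, true_and] at hv hw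
      simp only [g] at h
      have e1 := congrArg (disp α s) h
      have e2 := congrArg (disp α t) h
      have z1 : disp α s (1 : M) = 1 := (disp_eq_one hexp).2 (map_one _)
      have z2 : disp α t (1 : M) = 1 := (disp_eq_one hexp).2 (map_one _)
      have x1 := (disp_eq_one hexp).2 hxs
      have y2 := (disp_eq_one hexp).2 hyt
      have y1 : disp α s y = a := (hs.2.2.1 y).resolve_left fun e => hys ((disp_eq_one hexp).1 e)
      have x2 : disp α t x = b := (ht.2.2.1 x).resolve_left fun e => hxt ((disp_eq_one hexp).1 e)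
      simp only [disp_mul, (disp_eq_one hexp).2 hv.1, (disp_eq_one hexp).2 hw.1, apply_ite (disp α s),
        x1, y1, z1, ite_self, one_mul] at e1
      simp only [disp_mul, (disp_eq_one hexp).2 hv.2, (disp_eq_one hexp).2 hw.2, apply_ite (disp α t),
        x2, y2, z2, ite_self, one_mul, mul_one] at e2
      have hj : j = l := by
        cases j <;> cases l <;> simp [hs.1, hs.1.symm] at e1 ⊢
      have hi : i = k := by
        cases i <;> cases k <;> simp [ht.1, ht.1.symm] at e2 ⊢
      subst hi hj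
      have := mul_right_cancel h
      subst this
      rfl
    have := Nat.card_le_card_of_injective g hg
    rwa [Nat.card_prod, Nat.card_prod, Nat.card_eq_fintype_card, Fintype.card_coe, Nat.card_eq_fintype_card,
      Fintype.card_bool] at this
  have h4 := Finset.card_le_card hLF
  have hFL : L = F := Finset.eq_of_subset_of_card_le hLF (by omega)
  refine ⟨by omega, fun v h1 h2 => ?_⟩
  have : v ∈ L := hFL ▸ (by simp [F, h1, h2])
  simpa [L] using this

/-- An involution centralizing an element of order three with fixed points is a transvection. -/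
theorem isTv_of_centralizing [Finite M] (hcard : Nat.card M ≤ 16) (hα : Function.Injective α) {s R : S}
    (hs2 : s * s = 1) (hs : s ≠ 1) (hR3 : R * R * R = 1) (hR : R ≠ 1) (hc : s * R = R * s)
    (hP : ∃ w : M, w ≠ 1 ∧ α R w = w) :
    ∃ a, IsTv α s a ∧ ∀ v, α R v = v → α s v = v → v = 1 ∨ v = a := by
  classical
  let P : Subgroup M := (α R).toMonoidHom.eqLocus (MonoidHom.id M)
  have hPm : ∀ v, v ∈ P ↔ α R v = v := fun v => Iff.rfl
  let δ : M →* M :=
    { toFun := disp α R
      map_one' := (disp_eq_one hexp).2 (map_one _)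
      map_mul' := disp_mul R }
  let W : Subgroup M := δ.range
  have hsum : ∀ v, α R (α R (α R v)) = v := fun v => by
    rw [← act_mul, ← act_mul, hR3, act_one]
  have hdisj : ∀ u, u ∈ W → u ∈ P → u = 1 := by
    rintro _ ⟨v, rfl⟩ hu
    rw [hPm] at hu
    change α R (α R v * v) = α R v * v at hu
    show α R v * v = 1
    rw [map_mul, mul_comm (α R v) v, mul_left_inj] at hu
    have h3 := hsum v
    rw [hu] at h3
    rw [h3, hexp]
  -- a fourfold subset of the image of disp
  let orb : M → Option (Fin 3) → M := fun u o => o.elim 1 (fun i => α (R ^ (i : ℕ)) u)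
  have horbW : ∀ u ∈ W, ∀ o, orb u o ∈ W := by
    intro u hu o
    cases o with
    | none => exact one_mem W
    | some i =>
      obtain ⟨v, rfl⟩ := hu
      refine ⟨α (R ^ (i : ℕ)) v, ?_⟩
      show α R (α (R ^ (i : ℕ)) v) * α (R ^ (i : ℕ)) v = α (R ^ (i : ℕ)) (α R v * v)
      rw [map_mul, ← act_mul, ← act_mul, (Commute.self_pow R i).eq]
  have hR0 : ∀ u, orb u none = 1 := fun u => rfl
  have hRi : ∀ u (i : Fin 3), α R (orb u (some i)) = orb u (some (i + 1)) := by
    intro u i
    show α R (α (R ^ (i : ℕ)) u) = α (R ^ ((i + 1 : Fin 3) : ℕ)) u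
    rw [← act_mul, ← pow_succ']
    fin_cases i
    · rfl
    · rfl
    · show α (R ^ 3) u = α (R ^ 0) u
      rw [pow_succ, pow_two, hR3, pow_zero]
  have hne1 : ∀ u, u ≠ 1 → ∀ i : Fin 3, orb u (some i) ≠ 1 := fun u hu i e =>
    hu ((α (R ^ (i : ℕ))).injective (e.trans (map_one _).symm))
  have hfixed : ∀ u ∈ W, ∀ i : Fin 3, u ≠ 1 → α R (orb u (some i)) ≠ orb u (some i) := fun u hu i hne e =>
    hne1 u hne i (hdisj _ (horbW u hu _) ((hPm _).2 e))
  have hprod : ∀ u ∈ W, orb u (some 0) * orb u (some 1) * orb u (some 2) = 1 := by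
    intro u hu
    refine hdisj _ (mul_mem (mul_mem (horbW u hu _) (horbW u hu _)) (horbW u hu _)) ((hPm _).2 ?_)
    rw [map_mul, map_mul, hRi, hRi, hRi]
    show orb u (some 1) * orb u (some 2) * orb u (some 0) = _
    rw [mul_comm, mul_assoc]
  have horbinj : ∀ u ∈ W, u ≠ 1 → Function.Injective (orb u) := by
    intro u hu hne o p h
    have key : ∀ i : Fin 3, orb u (some i) ≠ orb u (some (i + 1)) := fun i e =>
      hfixed u hu i hne ((hRi u i).trans e.symm)
    rcases o with _ | i <;> rcases p with _ | j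
    · rfl
    · exact absurd h.symm (hne1 u hne j)
    · exact absurd h (hne1 u hne i)
    · by_contra hij
      have hij' : i ≠ j := fun e => hij (congrArg some e)
      have : j = i + 1 ∨ i = j + 1 := by clear h hij; revert hij' i j; decide
      rcases this with rfl | rfl
      · exact key i h
      · exact key j h.symm
  have horbcl : ∀ u ∈ W, ∀ o p, ∃ q, orb u o * orb u p = orb u q := by
    intro u hu o p
    rcases o with _ | i
    · exact ⟨p, one_mul _⟩
    rcases p with _ | j
    · exact ⟨some i, mul_one _⟩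
    by_cases hij : i = j
    · subst hij; exact ⟨none, hexp _⟩
    have hp := hprod u hu
    have main : ∀ a b c : M, a * b * c = 1 → a * b = c := fun a b c h => mul_eq_one_eq hexp h
    have cases3 : (i = 0 ∧ j = 1) ∨ (i = 1 ∧ j = 0) ∨ (i = 0 ∧ j = 2) ∨ (i = 2 ∧ j = 0) ∨
        (i = 1 ∧ j = 2) ∨ (i = 2 ∧ j = 1) := by revert i j; decide
    rcases cases3 with ⟨rfl, rfl⟩ | ⟨rfl, rfl⟩ | ⟨rfl, rfl⟩ | ⟨rfl, rfl⟩ | ⟨rfl, rfl⟩ | ⟨rfl, rfl⟩
    · exact ⟨some 2, main _ _ _ hp⟩
    · exact ⟨some 2, main _ _ _ (by rw [mul_comm (orb u (some 1))]; exact hp)⟩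
    · exact ⟨some 1, main _ _ _ (by rw [mul_right_comm]; exact hp)⟩
    · exact ⟨some 1, main _ _ _ (by rw [mul_comm (orb u (some 2)), mul_right_comm]; exact hp)⟩
    · exact ⟨some 0, main _ _ _ (by rw [mul_comm, ← mul_assoc]; exact hp)⟩
    · exact ⟨some 0, main _ _ _ (by rw [mul_comm (orb u (some 2)), mul_comm, ← mul_assoc]; exact hp)⟩
  have hPW : Nat.card P * Nat.card W ≤ 16 := by
    let g : P × W → M := fun x => x.1 * x.2
    have hg : Function.Injective g := by
      rintro ⟨⟨p, hp⟩, ⟨w, hw⟩⟩ ⟨⟨p', hp'⟩, ⟨w', hw'⟩⟩ h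
      have h2 : p' * p = w' * w := by
        refine mul_eq_one_eq hexp ?_
        calc p' * p * (w' * w) = p' * w' * (p * w) := by rw [mul_mul_mul_comm]
          _ = 1 := by rw [show p * w = p' * w' from h, hexp]
      have e1 : p' * p = 1 := hdisj _ (h2 ▸ mul_mem hw' hw) (mul_mem hp' hp)
      have e2 := mul_eq_one_eq hexp (h2.symm.trans e1)
      have e1' := mul_eq_one_eq hexp e1
      subst e2 e1'
      rfl
    have := Nat.card_le_card_of_injective g hg
    rw [Nat.card_prod] at this
    omega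
  obtain ⟨w₀, hw₀, hw₀P⟩ := hP
  have hP2 : 2 ≤ Nat.card P := by
    haveI : Nontrivial P := ⟨⟨w₀, hw₀P⟩, 1, fun e => hw₀ (congrArg Subtype.val e)⟩
    exact Finite.one_lt_card
  obtain ⟨v₀, hv₀⟩ : ∃ v, α R v ≠ v := by
    by_contra hcon
    push Not at hcon
    exact hR (hα (by rw [map_one]; exact MulEquiv.ext hcon))
  have hu₀ne : δ v₀ ≠ 1 := fun e => hv₀ ((disp_eq_one hexp).1 e)
  have hW4 : 4 ≤ Nat.card W := by
    have := Nat.card_le_card_of_injective (fun o => (⟨orb (δ v₀) o, horbW _ ⟨v₀, rfl⟩ o⟩ : W))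
      (fun o p h => horbinj _ ⟨v₀, rfl⟩ hu₀ne (congrArg Subtype.val h))
    simpa using this
  have hWorb : ∀ u ∈ W, u ≠ 1 → ∀ w ∈ W, ∃ o, w = orb u o := by
    intro u hu hne w hw
    by_contra hno
    push Not at hno
    have hw1 : w ≠ 1 := fun e => hno none e
    have hsep : ∀ o p, orb u o = orb w p → p = none := by
      intro o p h
      rcases p with _ | j
      · rfl
      exfalso
      rcases o with _ | i
      · exact hne1 w hw1 j h.symm
      obtain ⟨k, h'⟩ : ∃ k, orb u (some k) = orb w (some 0) := by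
        have h1 := congrArg (α R) h
        rw [hRi, hRi] at h1
        have h2 := congrArg (α R) h1
        rw [hRi, hRi] at h2
        fin_cases j
        · exact ⟨_, h⟩
        · exact ⟨_, h2⟩
        · exact ⟨_, h1⟩
      exact hno _ (h'.trans (show orb w (some 0) = w by show α (R ^ 0) w = w; rw [pow_zero, act_one])).symm
    let g : Option (Fin 3) × Option (Fin 3) → W := fun x =>
      ⟨orb u x.1 * orb w x.2, mul_mem (horbW u hu _) (horbW w hw _)⟩
    have hg : Function.Injective g := by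
      rintro ⟨o, p⟩ ⟨o', p'⟩ h
      have h' : orb u o * orb w p = orb u o' * orb w p' := congrArg Subtype.val h
      have h2 : orb u o * orb u o' = orb w p * orb w p' := by
        refine mul_eq_one_eq hexp ?_
        rw [mul_mul_mul_comm, h', hexp]
      obtain ⟨q, hq⟩ := horbcl u hu o o'
      obtain ⟨q', hq'⟩ := horbcl w hw p p'
      rw [hq, hq'] at h2
      have hq0 := hsep _ _ h2
      subst hq0
      have e1 := horbinj w hw hw1 (mul_eq_one_eq hexp hq')
      subst e1
      have e2 := horbinj u hu hne (mul_right_cancel h')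
      subst e2
      rfl
    have := Nat.card_le_card_of_injective g hg
    simp at this
    nlinarith
  have hcomm : ∀ v, α s (α R v) = α R (α s v) := fun v => by rw [← act_mul, hc, act_mul]
  have hs2' : ∀ v, α s (α s v) = v := fun v => by rw [← act_mul, hs2, act_one]
  have hsW : ∀ u ∈ W, α s u = u := by
    intro u hu
    by_cases hne : u = 1
    · rw [hne, map_one]
    have hsu : α s u ∈ W := by
      obtain ⟨v, rfl⟩ := hu
      exact ⟨α s v, by show α R (α s v) * α s v = α s (α R v * v); rw [map_mul, hcomm]⟩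
    obtain ⟨o, ho⟩ := hWorb u hu hne _ hsu
    rcases o with _ | i
    · exact absurd ((α s).injective (ho.trans (map_one _).symm)) hne
    have h0 : orb u (some 0) = u := by show α (R ^ 0) u = u; rw [pow_zero, act_one]
    have hshift : ∀ n : Fin 3, α s (orb u (some n)) = orb u (some (i + n)) := by
      intro n
      have h1 : α s (orb u (some 0)) = orb u (some (i + 0)) := by rw [h0, add_zero, ho]
      have h2 : α s (orb u (some 1)) = orb u (some (i + 1)) := by
        rw [show (1 : Fin 3) = 0 + 1 from rfl, ← hRi, hcomm, h1, hRi]; simp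
      fin_cases n
      · exact h1
      · exact h2
      · show α s (orb u (some 2)) = orb u (some (i + 2))
        rw [show (2 : Fin 3) = 1 + 1 from rfl, ← hRi, hcomm, h2, hRi, add_assoc]
    have hback := hs2' u
    rw [ho, hshift i] at hback
    have hii : i + i = 0 := Option.some.inj (horbinj u hu hne (hback.trans h0.symm))
    have hi0 : i = 0 := by clear hback hshift ho; revert hii; revert i; decide
    rw [ho, hi0, h0]
  have hdec : ∀ v, ∃ p ∈ P, ∃ w ∈ W, v = p * w := by
    intro v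
    refine ⟨v * α R v * α R (α R v), ?_, δ (α R v), ⟨_, rfl⟩, ?_⟩
    · rw [hPm, map_mul, map_mul, hsum]
      rw [mul_comm, ← mul_assoc]
    · show v = v * α R v * α R (α R v) * (α R (α R v) * α R v)
      rw [mul_assoc v, mul_comm (α R (α R v)) (α R v), mul_assoc, hexp, mul_one]
  have hdP : ∀ v, disp α s v ∈ P ∧ α s (disp α s v) = disp α s v := by
    intro v
    obtain ⟨p, hp, w, hw, rfl⟩ := hdec v
    rw [disp_mul, (disp_eq_one hexp).2 (hsW w hw), mul_one]
    refine ⟨mul_mem ((hPm _).2 ?_) hp, ?_⟩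
    · rw [← hcomm, (hPm p).1 hp]
    · show α s (α s p * p) = α s p * p
      rw [map_mul, hs2', mul_comm]
  obtain ⟨v₁, hv₁⟩ : ∃ v, α s v ≠ v := by
    by_contra hcon
    push Not at hcon
    exact hs (hα (by rw [map_one]; exact MulEquiv.ext hcon))
  obtain ⟨p₀, hp₀, hp₀s⟩ : ∃ p ∈ P, α s p ≠ p := by
    obtain ⟨p, hp, w, hw, rfl⟩ := hdec v₁
    exact ⟨p, hp, fun e => hv₁ (by rw [map_mul, e, hsW w hw])⟩
  have hP4 : Nat.card P ≤ 4 := by nlinarith
  let a := disp α s v₁
  have ha1 : a ≠ 1 := fun e => hv₁ ((disp_eq_one hexp).1 e)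
  have huniq : ∀ c ∈ P, α s c = c → c = 1 ∨ c = a := by
    intro c hcP hcs
    by_contra hcon
    push Not at hcon
    obtain ⟨hc1, hca⟩ := hcon
    have hal := hdP v₁
    let g : Fin 5 → P := ![1, ⟨a, hal.1⟩, ⟨c, hcP⟩, ⟨a * c, mul_mem hal.1 hcP⟩, ⟨p₀, hp₀⟩]
    have hgfix : ∀ i : Fin 5, i ≠ 4 → α s (g i : M) = g i := by
      intro i hi
      fin_cases i
      · exact map_one _
      · exact hal.2
      · exact hcs
      · show α s (a * c) = a * c
        rw [map_mul, hal.2, hcs]
      · exact absurd rfl hi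
    have h4 : ∀ i : Fin 5, i ≠ 4 → g i ≠ g 4 := fun i hi e => hp₀s (by
      have := hgfix i hi
      rw [e] at this
      exact this)
    have n1 : a * c ≠ 1 := fun e => hca (mul_eq_one_eq hexp e).symm
    have n2 : a * c ≠ a := fun e => hc1 (mul_left_cancel (a := a) (by rw [mul_one]; exact e))
    have n3 : a * c ≠ c := fun e => ha1 (mul_right_cancel (b := c) (by rw [one_mul]; exact e))
    have hg : Function.Injective g := by
      intro i j hij
      by_cases hi : i = 4
      · subst hi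
        by_contra hne
        exact h4 j (fun e => hne e.symm) hij.symm
      by_cases hj : j = 4
      · subst hj
        exact absurd hij (h4 i hi)
      have hv := congrArg Subtype.val hij
      fin_cases i <;> fin_cases j <;>
        simp [g, ha1, ha1.symm, hc1, hc1.symm, hca, hca.symm, n1, n1.symm, n2, n2.symm, n3, n3.symm] at hv hi hj ⊢
    have := Nat.card_le_card_of_injective g hg
    simp at this
    omega
  refine ⟨a, ⟨ha1, (hdP v₁).2, fun v => huniq _ (hdP v).1 (hdP v).2, v₁, rfl⟩, fun v h1 h2 => huniq v ((hPm v).2 h1) h2⟩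

end Action

open Equiv

/-- Perm six data for the first configuration. -/
theorem dataA : (swap 0 1 : Perm (Fin 6)) ≠ 1 ∧
    (swap 0 1 : Perm (Fin 6)) * (swap 3 4 * swap 4 5) = (swap 3 4 * swap 4 5) * swap 0 1 := by decide

theorem dataB : (swap 0 3 * swap 1 4 * swap 2 5 : Perm (Fin 6)) ≠ 1 ∧
    (swap 0 3 * swap 1 4 * swap 2 5 : Perm (Fin 6)) * (swap 0 1 * swap 1 2 * (swap 3 4 * swap 4 5)) =
      (swap 0 1 * swap 1 2 * (swap 3 4 * swap 4 5)) * (swap 0 3 * swap 1 4 * swap 2 5) := by decide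

/-- A triple of commuting conjugates of `s`, pairwise separated by centralizing elements. -/
def Triple (s : Perm (Fin 6)) (g : Fin 3 → Perm (Fin 6)) : Prop :=
  (∀ i j : Fin 3, (g i * s * (g i)⁻¹) * (g j * s * (g j)⁻¹) = (g j * s * (g j)⁻¹) * (g i * s * (g i)⁻¹)) ∧
  (∀ e e' : Bool × Bool × Bool,
    ((if e.1 then g 0 * s * (g 0)⁻¹ else 1) * (if e.2.1 then g 1 * s * (g 1)⁻¹ else 1) *
        (if e.2.2 then g 2 * s * (g 2)⁻¹ else 1)) =
    ((if e'.1 then g 0 * s * (g 0)⁻¹ else 1) * (if e'.2.1 then g 1 * s * (g 1)⁻¹ else 1) *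
        (if e'.2.2 then g 2 * s * (g 2)⁻¹ else 1)) → e = e') ∧
  ∀ i j : Fin 3, i < j → ∃ k : Perm (Fin 6), k * (g i * s * (g i)⁻¹) = (g i * s * (g i)⁻¹) * k ∧
    (k * (g j * s * (g j)⁻¹) * k⁻¹) * (g j * s * (g j)⁻¹) ≠ (g j * s * (g j)⁻¹) * (k * (g j * s * (g j)⁻¹) * k⁻¹)

theorem tripleA : Triple (swap 0 1) ![1, swap 0 2 * swap 1 3, swap 0 4 * swap 4 2 * (swap 1 5 * swap 5 3)] := by
  refine ⟨by decide, by decide +kernel, fun i j hij => ?_⟩
  fin_cases i <;> fin_cases j <;> simp at hij
  · exact ⟨swap 3 4, by decide⟩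
  · exact ⟨swap 3 4, by decide⟩
  · exact ⟨swap 1 4, by decide⟩

theorem tripleB : Triple (swap 0 3 * swap 1 4 * swap 2 5)
    ![swap 1 2 * swap 2 4 * swap 4 3, swap 2 4 * swap 4 3, swap 2 4] := by
  refine ⟨by decide, by decide +kernel, fun i j hij => ?_⟩
  fin_cases i <;> fin_cases j <;> simp at hij
  · exact ⟨swap 2 4 * swap 3 5, by decide⟩
  · exact ⟨swap 2 4 * swap 3 5, by decide⟩
  · exact ⟨swap 1 4 * swap 3 5, by decide⟩

theorem nineData : ∀ g h : Fin 3 × Fin 3, g ≠ h →
    ∀ r r' : Perm (Fin 6), r = swap 0 1 * swap 1 2 → r' = swap 3 4 * swap 4 5 →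
    ∃ n : Fin 2, ((r ^ (g.1 : ℕ) * r' ^ (g.2 : ℕ))⁻¹ * (r ^ (h.1 : ℕ) * r' ^ (h.2 : ℕ))) ^ ((n : ℕ) + 1) ∈
      [r, r', r * r', r * r' * r'] := by
  intro g h hne r r' hr hr'
  subst hr hr'
  revert hne g h
  decide +kernel

set_option maxHeartbeats 1000000 in
/-- One of the two configurations has an element of order three with fixed points. -/
theorem exists_fixed_case {M : Type*} [CommGroup M] [Finite M] (hexp : ∀ v : M, v * v = 1)
    (hcard : Nat.card M ≤ 16)
    (α : Perm (Fin 6) →* MulAut M) (hM : ∃ v : M, v ≠ 1) :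
    (∃ w : M, w ≠ 1 ∧ α (swap 3 4 * swap 4 5) w = w) ∨
    (∃ w : M, w ≠ 1 ∧ α (swap 0 1 * swap 1 2 * (swap 3 4 * swap 4 5)) w = w) := by
  classical
  by_contra hcon
  push Not at hcon
  obtain ⟨hA, hB⟩ := hcon
  set r : Perm (Fin 6) := swap 0 1 * swap 1 2 with hr
  set r' : Perm (Fin 6) := swap 3 4 * swap 4 5 with hr'
  have hconj : ∀ (x k : Perm (Fin 6)), (∀ w : M, w ≠ 1 → α x w ≠ w) → ∀ w : M, w ≠ 1 → α (k * x * k⁻¹) w ≠ w := by
    intro x k hx w hw e
    refine hx (α k⁻¹ w) (fun e1 => hw ((α k⁻¹).injective (e1.trans (map_one _).symm))) ?_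
    have := congrArg (α k⁻¹) e
    rwa [← act_mul, show k⁻¹ * (k * x * k⁻¹) = x * k⁻¹ by group, act_mul] at this
  have hr1 : ∀ w : M, w ≠ 1 → α r w ≠ w := by
    have e : r = (swap 0 3 * swap 1 4 * swap 2 5) * r' * (swap 0 3 * swap 1 4 * swap 2 5 : Perm (Fin 6))⁻¹ := by
      rw [hr, hr']; decide
    rw [e]; exact hconj _ _ hA
  have hr2 : ∀ w : M, w ≠ 1 → α (r * r' * r') w ≠ w := by
    have e : r * r' * r' = (swap 4 5 : Perm (Fin 6)) * (r * r') * (swap 4 5 : Perm (Fin 6))⁻¹ := by
      rw [hr, hr']; decide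
    rw [e]; exact hconj _ _ hB
  have hlist : ∀ x ∈ [r, r', r * r', r * r' * r'], ∀ w : M, w ≠ 1 → α x w ≠ w := by
    intro x hx
    simp only [List.mem_cons, List.not_mem_nil, or_false] at hx
    rcases hx with rfl | rfl | rfl | rfl
    · exact hr1
    · exact hA
    · exact hB
    · exact hr2
  let e : M → Fin 3 × Fin 3 → M := fun v g => α (r ^ (g.1 : ℕ) * r' ^ (g.2 : ℕ)) v
  have hne : ∀ v, v ≠ 1 → ∀ g, e v g ≠ 1 := fun v hv g h =>
    hv ((α (r ^ (g.1 : ℕ) * r' ^ (g.2 : ℕ))).injective (h.trans (map_one _).symm))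
  have hinj : ∀ v, v ≠ 1 → Function.Injective (e v) := by
    intro v hv g h hgh
    by_contra hne'
    obtain ⟨n, hn⟩ := nineData g h hne' r r' hr hr'
    refine hlist _ hn v hv ?_
    have hfix : α ((r ^ (g.1 : ℕ) * r' ^ (g.2 : ℕ))⁻¹ * (r ^ (h.1 : ℕ) * r' ^ (h.2 : ℕ))) v = v := by
      rw [act_mul]
      show α _ (e v h) = v
      rw [← hgh]
      show α _ (α _ v) = v
      rw [← act_mul, inv_mul_cancel, act_one]
    fin_cases n
    · simpa using hfix
    · show α (_ ^ 2) v = v
      rw [pow_two, act_mul, hfix, hfix]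
  have hcl : ∀ g h : Fin 3 × Fin 3, ∃ k : Fin 3 × Fin 3, (r ^ (g.1 : ℕ) * r' ^ (g.2 : ℕ))⁻¹ *
      (r ^ (h.1 : ℕ) * r' ^ (h.2 : ℕ)) = r ^ (k.1 : ℕ) * r' ^ (k.2 : ℕ) := by
    rw [hr, hr']; decide +kernel
  obtain ⟨v, hv⟩ := hM
  haveI := Fintype.ofFinite M
  let s : Finset M := insert 1 (Finset.univ.image (e v))
  have hs : s.card = 10 := by
    simp only [s]
    rw [Finset.card_insert_of_notMem (by simpa using hne v hv), Finset.card_image_of_injective _ (hinj v hv)]
    rfl
  by_cases hall : ∀ w : M, w ∈ s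
  · have hM10 : Nat.card M = 10 := by
      rw [Nat.card_eq_fintype_card, ← hs, ← Finset.card_univ]
      congr 1
      exact Finset.eq_univ_iff_forall.2 hall |>.symm
    have h5 : Fact (Nat.Prime 5) := ⟨by norm_num⟩
    obtain ⟨x, hx⟩ := exists_prime_orderOf_dvd_card' (G := M) 5 (by rw [hM10]; norm_num)
    have h2 : orderOf x ∣ 2 := orderOf_dvd_of_pow_eq_one (by rw [pow_two, hexp])
    rw [hx] at h2
    norm_num at h2
  push Not at hall
  obtain ⟨w, hw⟩ := hall
  simp only [s, Finset.mem_insert, Finset.mem_image, Finset.mem_univ, true_and, not_or, not_exists] at hw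
  let f : Bool × (Fin 3 × Fin 3) → M := fun x => e (if x.1 then v else w) x.2
  have hf : Function.Injective f := by
    rintro ⟨a, g⟩ ⟨b, h⟩ he
    have key : ∀ g h, e v g ≠ e w h := by
      intro g h he
      obtain ⟨k, hk⟩ := hcl h g
      refine hw.2 k ?_
      show α (r ^ (k.1 : ℕ) * r' ^ (k.2 : ℕ)) v = w
      rw [← hk, act_mul]
      show α _ (e v g) = w
      rw [he]
      show α _ (α _ w) = w
      rw [← act_mul, inv_mul_cancel, act_one]
    cases a <;> cases b <;> simp [f] at he ⊢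
    · exact hinj w hw.1 he
    · exact key _ _ he.symm
    · exact key _ _ he
    · exact hinj v hv he
  have := Nat.card_le_card_of_injective f hf
  simp only [Nat.card_eq_fintype_card, Fintype.card_prod, Fintype.card_bool, Fintype.card_fin] at this hcard
  omega

set_option maxHeartbeats 2000000 in
theorem not_rank_four {Y : Type*} [Group Y] [Finite Y] (V : Subgroup Y) [V.Normal]
    (hVc : ∀ a b : V, a * b = b * a) (hV2 : ∀ a : V, a * a = 1) (hcard : Nat.card V ≤ 16)
    (hC : Subgroup.centralizer (V : Set Y) ≤ V) (φ : Perm (Fin 6) →* Y ⧸ V) (hφ : Function.Injective φ) :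
    ¬ Cfsg.SectionalPRankLE 2 4 Y := by
  classical
  intro h4
  let cg : CommGroup ↥V := { (inferInstance : Group ↥V) with mul_comm := hVc }
  let β : Y ⧸ V →* MulAut ↥V := QuotientGroup.lift V MulAut.conjNormal (fun x hx => MonoidHom.mem_ker.2
    (MulEquiv.ext fun v => Subtype.ext (by
      show ((MulAut.conjNormal x v : V) : Y) = (v : Y)
      rw [MulAut.conjNormal_apply]
      have := congrArg Subtype.val (hVc ⟨x, hx⟩ v)
      simp only [Subgroup.coe_mul] at this
      rw [this, mul_inv_cancel_right])))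
  have hβ : Function.Injective β := by
    rw [← MonoidHom.ker_eq_bot_iff, eq_bot_iff]
    intro q hq
    induction q using QuotientGroup.induction_on with
    | _ y =>
      rw [Subgroup.mem_bot, QuotientGroup.eq_one_iff]
      refine hC (Subgroup.mem_centralizer_iff.2 fun v hv => ?_)
      have := congrArg (fun ψ : MulAut ↥V => ((ψ ⟨v, hv⟩ : V) : Y)) (MonoidHom.mem_ker.1 hq)
      change ((MulAut.conjNormal y ⟨v, hv⟩ : V) : Y) = v at this
      rw [MulAut.conjNormal_apply] at this
      exact (mul_inv_eq_iff_eq_mul.1 this).symm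
  let α : Perm (Fin 6) →* MulAut ↥V := β.comp φ
  have hα : Function.Injective α := hβ.comp hφ
  have hexp : ∀ v : V, v * v = 1 := hV2
  have hact : ∀ {σ : Perm (Fin 6)} {y : Y}, QuotientGroup.mk' V y = φ σ → ∀ v : V, (α σ v : Y) = y * v * y⁻¹ := by
    intro σ y hy v
    show ((β (φ σ) v : V) : Y) = _
    rw [← hy]
    exact MulAut.conjNormal_apply y v
  have hM : ∃ v : V, v ≠ 1 := by
    by_contra hcon
    push Not at hcon
    exact dataA.1 (hα (MulEquiv.ext fun v => by rw [hcon v, map_one, map_one]))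
  -- a configuration
  obtain ⟨s, R, g, hs, hss, hR3, hR1, hsR, hP, htr⟩ : ∃ (s R : Perm (Fin 6)) (g : Fin 3 → Perm (Fin 6)),
      s ≠ 1 ∧ s * s = 1 ∧ R * R * R = 1 ∧ R ≠ 1 ∧ s * R = R * s ∧ (∃ w : V, w ≠ 1 ∧ α R w = w) ∧ Triple s g := by
    rcases exists_fixed_case hexp hcard α hM with h | h
    · exact ⟨_, _, _, dataA.1, by decide, by decide, by decide, dataA.2, h, tripleA⟩
    · exact ⟨_, _, _, dataB.1, by decide, by decide, by decide, dataB.2, h, tripleB⟩
  obtain ⟨a, ha, haP⟩ := isTv_of_centralizing hexp hcard hα hss hs hR3 hR1 hsR hP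
  -- a lift of the involution squaring into its centre
  obtain ⟨y₀, hy₀⟩ := QuotientGroup.mk'_surjective V (φ s)
  obtain ⟨z₀, hz₀⟩ := QuotientGroup.mk'_surjective V (φ R)
  have hVpow : ∀ u : Y, u ∈ V → u * u = 1 := fun u hu => congrArg Subtype.val (hV2 ⟨u, hu⟩)
  have hR4 : R ^ 4 = R := by rw [pow_succ, pow_succ, pow_two, hR3, one_mul]
  let z := z₀ ^ 4
  have hz : QuotientGroup.mk' V z = φ R := by rw [map_pow, hz₀, ← map_pow, hR4]
  have hz3 : z * z * z = 1 := by
    have h3 : z₀ ^ 3 ∈ V := by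
      rw [← QuotientGroup.eq_one_iff, ← QuotientGroup.mk'_apply, map_pow, hz₀, ← map_pow, pow_succ, pow_two, hR3, map_one]
    have := hVpow _ h3
    calc z * z * z = (z₀ ^ 3 * z₀ ^ 3) * (z₀ ^ 3 * z₀ ^ 3) := by simp only [z, ← pow_add]
      _ = 1 := by rw [this, one_mul]
  obtain ⟨v₀, hv₀⟩ : ∃ v₀ : V, (v₀ : Y) = y₀⁻¹ * (z * y₀ * z⁻¹) := by
    refine ⟨⟨_, ?_⟩, rfl⟩
    rw [← QuotientGroup.eq_one_iff, ← QuotientGroup.mk'_apply, map_mul, map_mul, map_mul, map_inv, map_inv, hy₀, hz,
      ← map_inv, ← map_inv, ← map_mul, ← map_mul, ← map_mul, ← hsR]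
    simp
  have hzy : z * y₀ * z⁻¹ = y₀ * v₀ := by rw [hv₀]; group
  let y := y₀ * (α R v₀ : Y)
  have hy : QuotientGroup.mk' V y = φ s := by
    rw [map_mul, hy₀, show QuotientGroup.mk' V ((α R v₀ : V) : Y) = 1 from (QuotientGroup.eq_one_iff _).2 (α R v₀).2, mul_one]
  have horbit : v₀ * α R v₀ * α R (α R v₀) = 1 := by
    have step : ∀ (u w : V), z * (y₀ * (u : Y)) * z⁻¹ = y₀ * ((v₀ * α R u : V) : Y) := by
      intro u w
      rw [Subgroup.coe_mul, hact hz, ← mul_assoc y₀, hv₀]
      group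
    have e1 := step v₀ 1
    have e2 := step (v₀ * α R v₀) 1
    have e3 : z * (z * (z * y₀ * z⁻¹) * z⁻¹) * z⁻¹ = y₀ := by
      calc z * (z * (z * y₀ * z⁻¹) * z⁻¹) * z⁻¹ = (z * z * z) * y₀ * (z * z * z)⁻¹ := by group
        _ = y₀ := by rw [hz3]; group
    rw [hzy, e1, e2] at e3
    have e4 : v₀ * α R (v₀ * α R v₀) = 1 := Subtype.ext (mul_left_cancel (e3.trans (mul_one y₀).symm))
    rw [map_mul, ← mul_assoc] at e4
    exact e4
  have hzc : z * y * z⁻¹ = y := by
    have h1 : v₀ * α R (α R v₀) = α R v₀ := by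
      refine mul_eq_one_eq hexp ?_
      rw [mul_right_comm, horbit]
    show z * (y₀ * (α R v₀ : Y)) * z⁻¹ = y₀ * (α R v₀ : Y)
    conv_rhs => rw [← h1, Subgroup.coe_mul, hact hz (α R v₀), ← mul_assoc y₀, hv₀]
    group
  have hq : ∃ q : V, (q : Y) = y * y ∧ (q = 1 ∨ q = a) := by
    have hm : y * y ∈ V := by
      rw [← QuotientGroup.eq_one_iff, ← QuotientGroup.mk'_apply, map_mul, hy, ← map_mul, hss, map_one]
    refine ⟨⟨y * y, hm⟩, rfl, haP _ (Subtype.ext ?_) (Subtype.ext ?_)⟩
    · rw [hact hz]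
      calc z * (y * y) * z⁻¹ = (z * y * z⁻¹) * (z * y * z⁻¹) := by group
        _ = y * y := by rw [hzc]
    · rw [hact hy]
      group
  -- the three lifts
  have hlift : ∀ i : Fin 3, ∃ yi : Y, ∃ q : V, QuotientGroup.mk' V yi = φ (g i * s * (g i)⁻¹) ∧
      (q : Y) = yi * yi ∧ (q = 1 ∨ q = α (g i) a) := by
    intro i
    obtain ⟨c, hc⟩ := QuotientGroup.mk'_surjective V (φ (g i))
    obtain ⟨q, hq1, hq2⟩ := hq
    refine ⟨c * y * c⁻¹, α (g i) q, ?_, ?_, ?_⟩
    · rw [map_mul, map_mul, map_inv, hc, hy, ← map_inv, ← map_mul, ← map_mul]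
    · rw [hact hc, hq1]; group
    · rcases hq2 with h | h <;> rw [h]
      · exact Or.inl (map_one _)
      · exact Or.inr rfl
  choose ly lq hly hlq hlqv using hlift
  let t : Fin 3 → Perm (Fin 6) := fun i => g i * s * (g i)⁻¹
  let b : Fin 3 → V := fun i => α (g i) a
  have htv : ∀ i, IsTv α (t i) (b i) := fun i => ha.conj hexp (g i)
  obtain ⟨hcomm, hindep, hwit⟩ := htr
  have hsep : ∀ i j : Fin 3, i < j → b i ≠ b j ∧ ¬ ∀ v, α (t i) v = v ↔ α (t j) v = v := by
    intro i j hij
    obtain ⟨k, hk1, hk2⟩ := hwit i j hij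
    have htk := (htv j).conj hexp k
    constructor
    · intro e
      have hkb : α k (b i) = b i := by
        have h := (htv i).conj hexp k
        rw [show k * t i * k⁻¹ = t i by rw [show k * t i = t i * k from hk1, mul_inv_cancel_right]] at h
        obtain ⟨v, hv⟩ := h.2.2.2
        rcases (htv i).2.2.1 v with h1 | h1
        · exact absurd (hv.symm.trans h1) h.1
        · exact hv.symm.trans h1
      rw [e] at hkb
      rw [hkb] at htk
      exact hk2 (commute_of_fix hexp hα htk (htv j) htk.2.1 (htv j).2.1)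
    · intro e
      have hfix : ∀ v, α (k * t j * k⁻¹) v = v ↔ α (t j) v = v := by
        intro v
        have key : α (k * t j * k⁻¹) v = v ↔ α (t j) (α k⁻¹ v) = α k⁻¹ v := by
          rw [act_mul, act_mul]
          constructor
          · intro h
            have := congrArg (α k⁻¹) h
            rwa [← act_mul k⁻¹ k, inv_mul_cancel, act_one] at this
          · intro h
            rw [h, ← act_mul, mul_inv_cancel, act_one]
        have hkt : k⁻¹ * t i = t i * k⁻¹ := by
          calc k⁻¹ * t i = k⁻¹ * (t i * k) * k⁻¹ := by group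
            _ = t i * k⁻¹ := by rw [← show k * t i = t i * k from hk1]; group
        rw [key, ← e, ← e, ← act_mul, ← hkt, act_mul]
        exact (α k⁻¹).apply_eq_iff_eq
      exact hk2 (commute_of_fix hexp hα htk (htv j) ((hfix _).2 (htv j).2.1) ((hfix _).1 htk.2.1))
  obtain ⟨hab, hne⟩ := hsep 0 1 (by decide)
  obtain ⟨hV16, hL⟩ := common_fixed hexp hcard (htv 0) (htv 1) (hcomm 0 1) hab hne
  have hfixb : ∀ i j, α (t i) (b j) = b j := by
    intro i j
    by_cases hij : i = j
    · subst hij; exact (htv i).2.1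
    · exact (htv i).fix hexp (htv j) (hcomm i j)
  let L : Subgroup V := Subgroup.closure {b 0, b 1}
  have hbL : ∀ i, b i ∈ L := by
    intro i
    have h0 : b 0 ∈ L := Subgroup.subset_closure (Or.inl rfl)
    have h1 : b 1 ∈ L := Subgroup.subset_closure (Or.inr rfl)
    rcases hL (b i) (hfixb 0 i) (hfixb 1 i) with h | h | h | h
    · exact absurd h (htv i).1
    · rw [h]; exact h0
    · rw [h]; exact h1
    · rw [h]; exact mul_mem h0 h1
  have hbb : b 2 = b 0 * b 1 := by
    rcases hL (b 2) (hfixb 0 2) (hfixb 1 2) with h | h | h | h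
    · exact absurd h (htv 2).1
    · exact absurd h.symm (hsep 0 2 (by decide)).1
    · exact absurd h.symm (hsep 1 2 (by decide)).1
    · exact h
  -- pairwise common fixed vectors lie in the group of centres
  have hFix : ∀ i j : Fin 3, i < j → ∀ v, α (t i) v = v → α (t j) v = v → v ∈ L := by
    intro i j hij v h1 h2
    obtain ⟨e1, e2⟩ := hsep i j hij
    rcases (common_fixed hexp hcard (htv i) (htv j) (hcomm i j) e1 e2).2 v h1 h2 with h | h | h | h <;> rw [h]
    · exact one_mem L
    · exact hbL i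
    · exact hbL j
    · exact mul_mem (hbL i) (hbL j)
  let N : Subgroup Y := L.map V.subtype
  have hqN : ∀ i, ly i * ly i ∈ N := by
    intro i
    refine ⟨lq i, ?_, hlq i⟩
    rcases hlqv i with h | h <;> rw [h]
    · exact one_mem L
    · exact hbL i
  have hqfix : ∀ i j, α (t j) (lq i) = lq i := by
    intro i j
    rcases hlqv i with h | h <;> rw [h]
    · exact map_one _
    · exact hfixb j i
  have hcommN : ∀ i j : Fin 3, i < j → (ly i)⁻¹ * (ly j * ly i * (ly j)⁻¹) ∈ N := by
    intro i j hij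
    have hm : (ly i)⁻¹ * (ly j * ly i * (ly j)⁻¹) ∈ V := by
      rw [← QuotientGroup.eq_one_iff, ← QuotientGroup.mk'_apply, map_mul, map_mul, map_mul, map_inv, map_inv, hly, hly,
        ← map_inv, ← map_inv, ← map_mul, ← map_mul, ← map_mul, hcomm j i]
      rw [mul_inv_cancel_right, inv_mul_cancel, map_one]
    let v : V := ⟨_, hm⟩
    have hvv : (v : Y)⁻¹ = v := inv_eq_of_mul_eq_one_left (hVpow _ v.2)
    have hqi : ly j * (ly i * ly i) * (ly j)⁻¹ = ly i * ly i := by
      rw [← hlq i, ← hact (hly j), hqfix i j]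
    have hqj : ly i * (ly j * ly j) * (ly i)⁻¹ = ly j * ly j := by
      rw [← hlq j, ← hact (hly i), hqfix j i]
    refine ⟨v, hFix i j hij v (Subtype.ext ?_) (Subtype.ext ?_), rfl⟩
    · rw [hact (hly i)]
      conv_rhs => rw [← hvv]
      calc ly i * ((ly i)⁻¹ * (ly j * ly i * (ly j)⁻¹)) * (ly i)⁻¹
          = (ly j * ly i * (ly j)⁻¹) * (ly i)⁻¹ := by group
        _ = (ly j * ly i * (ly j)⁻¹)⁻¹ * (ly j * (ly i * ly i) * (ly j)⁻¹) * (ly i)⁻¹ := by group
        _ = (ly j * ly i * (ly j)⁻¹)⁻¹ * ly i := by rw [hqi]; group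
        _ = ((ly i)⁻¹ * (ly j * ly i * (ly j)⁻¹))⁻¹ := by group
    · rw [hact (hly j)]
      conv_rhs => rw [← hvv]
      have e : (ly j * ly j) * ly i = ly i * (ly j * ly j) := (mul_inv_eq_iff_eq_mul.1 hqj).symm
      calc ly j * ((ly i)⁻¹ * (ly j * ly i * (ly j)⁻¹)) * (ly j)⁻¹
          = ly j * (ly i)⁻¹ * (ly j)⁻¹ * ((ly j * ly j) * ly i) * (ly j * ly j)⁻¹ := by group
        _ = ((ly i)⁻¹ * (ly j * ly i * (ly j)⁻¹))⁻¹ := by rw [e]; group
  have hvN : ∀ (i : Fin 3) (v : V), (v : Y)⁻¹ * (ly i * v * (ly i)⁻¹) ∈ N := by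
    intro i v
    refine ⟨disp α (t i) v, ?_, ?_⟩
    · rcases (htv i).2.2.1 v with h | h <;> rw [h]
      · exact one_mem L
      · exact hbL i
    · show ((α (t i) v * v : V) : Y) = _
      rw [hVc, Subgroup.coe_mul, hact (hly i), inv_eq_of_mul_eq_one_left (hVpow _ v.2)]
  have hNV : N ≤ V := Subgroup.map_subtype_le L
  have hNfix : ∀ i, ∀ n ∈ N, ly i * n * (ly i)⁻¹ = n := by
    rintro i _ ⟨u, hu, rfl⟩
    show ly i * (u : Y) * (ly i)⁻¹ = (u : Y)
    rw [← hact (hly i)]
    congr 1
    induction hu using Subgroup.closure_induction with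
    | mem x hx => rcases hx with rfl | rfl <;> exact hfixb i _
    | one => exact map_one _
    | mul x z _ _ hx hz => rw [map_mul, hx, hz]
    | inv x _ hx => rw [map_inv, hx]
  let A : Subgroup Y := Subgroup.normalizer (N : Set Y)
  have hVA : V ≤ A := by
    intro v hv
    refine Subgroup.mem_normalizer_iff.2 fun n => ?_
    have key : ∀ n ∈ V, v * n * v⁻¹ = n := fun n hn => by
      rw [show v * n = n * v from congrArg Subtype.val (hVc ⟨v, hv⟩ ⟨n, hn⟩), mul_inv_cancel_right]
    constructor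
    · intro hn; rw [key n (hNV hn)]; exact hn
    · intro hn
      have hnV : n ∈ V := by
        have h1 := mul_mem (mul_mem (inv_mem hv) (hNV hn)) hv
        rwa [show v⁻¹ * (v * n * v⁻¹) * v = n by group] at h1
      rwa [key n hnV] at hn
  have hyA : ∀ i, ly i ∈ A := by
    intro i
    refine Subgroup.mem_normalizer_iff.2 fun n => ⟨fun hn => ?_, fun hn => ?_⟩
    · rw [hNfix i n hn]; exact hn
    · have := hNfix i _ hn
      have e := mul_left_cancel (mul_right_cancel this)
      rw [e] at hn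
      exact hn
  let N' : Subgroup A := N.subgroupOf A
  haveI : N'.Normal := ⟨fun n hn x => by
    show (x : Y) * n * (x : Y)⁻¹ ∈ N
    exact (Subgroup.mem_normalizer_iff.1 x.2 n).1 hn⟩
  let π : A →* A ⧸ N' := QuotientGroup.mk' N'
  let G : Set (A ⧸ N') := Set.range (fun v : V => π ⟨v, hVA v.2⟩) ∪ Set.range (fun i => π ⟨ly i, hyA i⟩)
  have heqc : ∀ x z : A, ((x : Y)⁻¹ * ((z : Y) * x * (z : Y)⁻¹)) ∈ N → π x * π z = π z * π x := by
    intro x z h
    have h1 : π (x⁻¹ * (z * x * z⁻¹)) = 1 := (QuotientGroup.eq_one_iff _).2 h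
    rw [map_mul, map_mul, map_mul, map_inv, map_inv, inv_mul_eq_one] at h1
    conv_lhs => rw [h1]
    rw [inv_mul_cancel_right]
  have hGc : ∀ x ∈ G, ∀ z ∈ G, x * z = z * x := by
    rintro _ (⟨v, rfl⟩ | ⟨i, rfl⟩) _ (⟨w, rfl⟩ | ⟨j, rfl⟩)
    · rw [← map_mul, ← map_mul]; exact congrArg π (Subtype.ext (show (v : Y) * w = w * v from congrArg Subtype.val (hVc v w)))
    · exact heqc _ _ (hvN j v)
    · exact (heqc _ _ (hvN i w)).symm
    · rcases lt_trichotomy i j with h | h | h
      · exact heqc _ _ (hcommN i j h)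
      · rw [h]
      · exact (heqc _ _ (hcommN j i h)).symm
  have hG2 : ∀ x ∈ G, x ^ 2 = 1 := by
    rintro _ (⟨v, rfl⟩ | ⟨i, rfl⟩) <;> rw [pow_two, ← map_mul] <;> refine (QuotientGroup.eq_one_iff _).2 ?_
    · show (v : Y) * v ∈ N
      rw [hVpow _ v.2]; exact one_mem N
    · exact hqN i
  let B : Subgroup (A ⧸ N') := Subgroup.closure G
  haveI hBc : IsMulCommutative B := Subgroup.isMulCommutative_closure hGc
  have hB2 : ∀ x ∈ B, x ^ 2 = 1 := by
    intro x hx
    induction hx using Subgroup.closure_induction with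
    | mem x hx => exact hG2 x hx
    | one => exact one_pow 2
    | mul x z hx' hz' hx hz =>
      have : x * z = z * x := congrArg Subtype.val (mul_comm' (⟨x, hx'⟩ : B) ⟨z, hz'⟩)
      rw [Commute.mul_pow this, hx, hz, one_mul]
    | inv x _ hx => rw [inv_pow, hx, inv_one]
  have hB := h4 A N' B hBc hB2
  let prod : V × (Bool × Bool × Bool) → A := fun p =>
    ⟨p.1, hVA p.1.2⟩ * ((if p.2.1 then ⟨ly 0, hyA 0⟩ else 1) * (if p.2.2.1 then ⟨ly 1, hyA 1⟩ else 1) *
      (if p.2.2.2 then ⟨ly 2, hyA 2⟩ else 1))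
  have hinjp : Function.Injective prod := by
    rintro ⟨v, e⟩ ⟨w, f⟩ h
    have h' := congrArg (fun x : A => QuotientGroup.mk' V (x : Y)) h
    simp only [prod, Subgroup.coe_mul, map_mul,       apply_ite (Subtype.val : A → Y), apply_ite (QuotientGroup.mk' V), Subgroup.coe_one, map_one, hly,
      (QuotientGroup.eq_one_iff (N := V) (v : Y)).2 v.2, (QuotientGroup.eq_one_iff (N := V) (w : Y)).2 w.2,
      QuotientGroup.mk'_apply, one_mul] at h'
    have hef : e = f := hindep e f (hφ (by simpa only [map_mul, apply_ite φ, map_one] using h'))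
    subst hef
    have := mul_right_cancel h
    exact Prod.ext (Subtype.ext (congrArg (fun x : A => (x : Y)) this)) rfl
  have hprodB : ∀ p, π (prod p) ∈ B := by
    intro p
    have hv : π ⟨p.1, hVA p.1.2⟩ ∈ B := Subgroup.subset_closure (Or.inl ⟨p.1, rfl⟩)
    have hl : ∀ i (c : Bool), π (if c = true then (⟨ly i, hyA i⟩ : A) else 1) ∈ B := by
      intro i c
      cases c
      · show π 1 ∈ B
        rw [map_one]
        exact one_mem B
      · show π ⟨ly i, hyA i⟩ ∈ B
        exact Subgroup.subset_closure (Or.inr ⟨i, rfl⟩)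
    simp only [prod, map_mul]
    exact mul_mem hv (mul_mem (mul_mem (hl 0 _) (hl 1 _)) (hl 2 _))
  let f : V × (Bool × Bool × Bool) → B × N' := fun p =>
    (⟨π (prod p), hprodB p⟩, ⟨(Quotient.out (π (prod p)) : A)⁻¹ * prod p,
      QuotientGroup.eq.1 (QuotientGroup.out_eq' _)⟩)
  have hf : Function.Injective f := by
    intro p q h
    apply hinjp
    have h1 : π (prod p) = π (prod q) := congrArg Subtype.val (congrArg Prod.fst h)
    have h2 := congrArg Subtype.val (congrArg Prod.snd h)
    simp only [f] at h2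
    rw [h1] at h2
    exact mul_left_cancel h2
  have hN4 : Nat.card N' ≤ 4 := by
    have hset : ∀ x : V, x ∈ L → x = 1 ∨ x = b 0 ∨ x = b 1 ∨ x = b 0 * b 1 := fun x hx => by
      refine hL x ?_ ?_ <;>
      · induction hx using Subgroup.closure_induction with
        | mem x hx => rcases hx with rfl | rfl <;> exact hfixb _ _
        | one => exact map_one _
        | mul x z _ _ hx hz => rw [map_mul, hx, hz]
        | inv x _ hx => rw [map_inv, hx]
    have hNA : N ≤ A := hNV.trans hVA
    rw [Nat.card_congr (Subgroup.subgroupOfEquivOfLe hNA).toEquiv,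
      Subgroup.card_map_of_injective V.subtype_injective]
    calc Nat.card L ≤ (({1, b 0, b 1, b 0 * b 1} : Finset V) : Set V).ncard := by
          rw [← SetLike.coe_sort_coe, Nat.card_coe_set_eq]
          refine Set.ncard_le_ncard (fun x hx => ?_) (Finset.finite_toSet _)
          simpa using hset x hx
      _ ≤ 4 := by
          rw [Set.ncard_coe_finset]
          exact Finset.card_le_four
  have hcount := Nat.card_le_card_of_injective f hf
  rw [Nat.card_prod, Nat.card_prod, hV16] at hcount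
  simp at hcount
  norm_num at hB
  nlinarith

end CfsgLib.InvChar.SymSixSection
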