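/-
InvChar: strongly closed subgroups and centric radicals in a Sylow subgroup of SU_n in its characteristic.
-/
import Cfsg.Agent.Lib.ClassicalAut.UnitaryPoints
import Cfsg.Agent.Lib.InvChar.UnitaryFixGen
import Cfsg.Agent.Lib.InvChar.CharPSimple
import Cfsg.Agent.Lib.ClassicalLinear.Sylow

set_option autoImplicit false
set_option linter.unusedSectionVars false

namespace CfsgLib.InvChar.UnitaryFusion

open Matrix CfsgLib.Geometric CfsgLib.Geometric.Unitary CfsgLib.ClassicalAut.Unitary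

variable {n q : ℕ} {F : Type*} [Field F] [Finite F] (S : Setup n q F)

local notation "V" => (Fin n → F)
local notation "A" => Setup.sk S
set_option quotPrecheck false in
local notation "SUn" => ↥(Cfsg.SU n F q)
set_option quotPrecheck false in
local notation "g•" => gl n q F

/-- The elements fixing a subspace pointwise. -/
def fixS (U : Submodule F (Fin n → F)) : Subgroup ↥(Cfsg.SU n F q) where
  carrier := {s | ∀ x ∈ U, ap (gl n q F s) x = x}
  one_mem' := fun x _ => by simp
  mul_mem' := fun {a b} ha hb x hx => by rw [map_mul, ap_mul, hb x hx, ha x hx]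
  inv_mem' := fun {a} ha x hx => by
    conv_lhs => rw [← ha x hx]
    rw [← ap_mul, ← map_mul, inv_mul_cancel, map_one, ap_one]

theorem mem_fixS {U : Submodule F V} {s : SUn} :
    s ∈ fixS (n := n) (q := q) U ↔ ∀ x ∈ U, ap (gl n q F s) x = x := Iff.rfl

theorem fix_inv {s : SUn} {x : V} (h : ap (gl n q F s) x = x) : ap (gl n q F s⁻¹) x = x := by
  conv_lhs => rw [← h]
  rw [← ap_mul, ← map_mul, inv_mul_cancel, map_one, ap_one]

/-- The radical of a subspace. -/
def rad (W : Submodule F (Fin n → F)) : Subgroup ↥(Cfsg.SU n F q) where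
  carrier := {s | (∀ w ∈ W, ap (gl n q F s) w = w) ∧
    ∀ x ∈ perp S.sk W, ap (gl n q F s) x - x ∈ W}
  one_mem' := ⟨fun x _ => by simp, fun x _ => by simp⟩
  mul_mem' := by
    rintro a b ⟨ha, ha'⟩ ⟨hb, hb'⟩
    refine ⟨fun w hw => by rw [map_mul, ap_mul, hb w hw, ha w hw], fun x hx => ?_⟩
    have hbx : ap (gl n q F b) x ∈ perp S.sk W := fun w hw => by
      have e := S.f_gl b x w
      rw [hb w hw] at e
      exact e.trans (hx w hw)
    have := W.add_mem (ha' _ hbx) (hb' x hx)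
    rwa [sub_add_sub_cancel, ← ap_mul, ← map_mul] at this
  inv_mem' := by
    rintro a ⟨ha, ha'⟩
    refine ⟨fun w hw => fix_inv (ha w hw), fun x hx => ?_⟩
    have hax : ap (gl n q F a⁻¹) x ∈ perp S.sk W := fun w hw => by
      have e := S.f_gl a⁻¹ x w
      rw [fix_inv (ha w hw)] at e
      exact e.trans (hx w hw)
    have := W.neg_mem (ha' _ hax)
    rwa [← ap_mul, ← map_mul, mul_inv_cancel, map_one, ap_one, neg_sub] at this

theorem mem_rad {W : Submodule F V} {s : SUn} : s ∈ rad S W ↔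
    (∀ w ∈ W, ap (gl n q F s) w = w) ∧ ∀ x ∈ perp A W, ap (gl n q F s) x - x ∈ W := Iff.rfl

theorem rad_span (u : V) : rad S (Submodule.span F {u}) = S.unip u := by
  ext s
  rw [mem_rad, Setup.mem_unip]
  refine and_congr ⟨fun h => h u (Submodule.mem_span_singleton_self u), fun h w hw => ?_⟩
    ⟨fun h x hx => h x ((mem_perp_span S.sk).2 hx), fun h x hx => h x ((mem_perp_span S.sk).1 hx)⟩
  obtain ⟨c, rfl⟩ := Submodule.mem_span_singleton.1 hw
  rw [ap_smul, h]

theorem cube_zero {W : Submodule F V} {s : SUn} (hs : s ∈ rad S W) :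
    (((gl n q F s : GL (Fin n) F) : Matrix (Fin n) (Fin n) F) - 1) ^ 3 = 0 := by
  set M : Matrix (Fin n) (Fin n) F := ((gl n q F s : GL (Fin n) F) : Matrix (Fin n) (Fin n) F) with hM
  have hN : ∀ x, (M - 1) *ᵥ x = ap (gl n q F s) x - x := fun x => by
    rw [Matrix.sub_mulVec, Matrix.one_mulVec]; rfl
  refine Matrix.ext_of_mulVec_single fun i => ?_
  rw [Matrix.zero_mulVec, show (3 : ℕ) = 1 + 1 + 1 from rfl, pow_add, pow_add, pow_one,
    ← Matrix.mulVec_mulVec, ← Matrix.mulVec_mulVec, hN, hN, hN]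
  set x : V := Pi.single i 1
  have hy : ap (gl n q F s) x - x ∈ perp A W := fun w hw => by
    have e := S.f_gl s x w
    rw [hs.1 w hw] at e
    show S.f _ w = 0
    rw [Unitary.sub_left A, e, sub_self]
  rw [hs.1 _ (hs.2 _ hy), sub_self]

theorem pow_eq_one_of_cube (p : ℕ) [Fact p.Prime] [CharP F p] {M : Matrix (Fin n) (Fin n) F}
    (h : (M - 1) ^ 3 = 0) : M ^ p ^ 2 = 1 := by
  have hp : 3 ≤ p ^ 2 := by have := (Fact.out : p.Prime).two_le; nlinarith
  rcases isEmpty_or_nonempty (Fin n) with he | he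
  · exact Subsingleton.elim _ _
  haveI : CharP (Matrix (Fin n) (Fin n) F) p := inferInstance
  have h4 : (M - 1) ^ (p ^ 2) = 0 := pow_eq_zero_of_le hp h
  rwa [sub_pow_char_pow_of_commute (p := p) 2 (Commute.one_right M), one_pow, sub_eq_zero] at h4

theorem rad_pow (p : ℕ) [Fact p.Prime] [CharP F p] {W : Submodule F V} {s : SUn} (hs : s ∈ rad S W) :
    s ^ p ^ 2 = 1 := by
  refine gl_injective (Units.ext ?_)
  rw [map_pow, map_one, Units.val_pow_eq_pow_val, Units.val_one]
  exact pow_eq_one_of_cube p (cube_zero S hs)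

theorem isPGroup_rad (p : ℕ) [Fact p.Prime] [CharP F p] (W : Submodule F V) : IsPGroup p (rad S W) :=
  fun s => ⟨2, Subtype.ext (rad_pow S p s.2)⟩

theorem ap_inv_ap' (s : SUn) (x : V) : ap (gl n q F s⁻¹) (ap (gl n q F s) x) = x := by
  rw [← ap_mul, ← map_mul, inv_mul_cancel, map_one, ap_one]

theorem ap_ap_inv' (s : SUn) (x : V) : ap (gl n q F s) (ap (gl n q F s⁻¹) x) = x := by
  rw [← ap_mul, ← map_mul, mul_inv_cancel, map_one, ap_one]

theorem conj_rad {W W' : Submodule F V} {s t : SUn} (h : ∀ w ∈ W, ap (gl n q F s) w ∈ W')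
    (h' : ∀ w ∈ W', ap (gl n q F s⁻¹) w ∈ W) (ht : t ∈ rad S W) : s * t * s⁻¹ ∈ rad S W' := by
  refine ⟨fun w hw => ?_, fun x hx => ?_⟩
  · rw [map_mul, map_mul, ap_mul, ap_mul, ht.1 _ (h' w hw), ap_ap_inv']
  · have hx' : ap (gl n q F s⁻¹) x ∈ perp A W := fun w hw => by
      have e := S.f_gl s (ap (gl n q F s⁻¹) x) w
      rw [ap_ap_inv'] at e
      exact e.symm.trans (hx _ (h w hw))
    have h2 := h _ (ht.2 _ hx')
    rw [ap_sub, ap_ap_inv'] at h2
    rwa [map_mul, map_mul, ap_mul, ap_mul]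

theorem tr_mem_rad {W : Submodule F V} (hW : ∀ a ∈ W, ∀ b ∈ W, S.f a b = 0) {v : V} (hv : v ∈ W)
    (c : F) (hc : S.σ c = c) : S.tr v (hW v hv v hv) c hc ∈ rad S W := by
  refine ⟨fun w hw => ?_, fun x hx => ?_⟩
  · rw [S.gl_tr, ap_T_fix A _ (hW w hw v hv)]
  · rw [S.gl_tr, ap_T_fix A _ (hx v hv), sub_self]
    exact zero_mem _

/-- A unit of the fixed field is a norm. -/
theorem exists_norm_ne {d : F} (hd : S.σ d = d) (hd0 : d ≠ 0) : ∃ r, r ≠ 0 ∧ r * S.σ r = d := by
  obtain ⟨r, hr⟩ := Unitary.exists_norm A hd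
  exact ⟨r, fun h => hd0 (by rw [← hr, h, zero_mul]), hr⟩

/-- An anisotropic vector orthogonal to two vectors. -/
theorem exists_aniso (hn : 4 ≤ n) {u v : V} (hvv : S.f v v ≠ 0) :
    ∃ e, S.f e u = 0 ∧ S.f e v = 0 ∧ S.f e e ≠ 0 := by
  by_contra hcon
  push Not at hcon
  set U := Submodule.span F {u, v}
  have hiso : ∀ e ∈ perp A U, S.f e e = 0 := fun e he =>
    hcon e (he u (Submodule.subset_span (by simp))) (he v (Submodule.subset_span (by simp)))
  have hle : perp A U ≤ U := fun x hx => mem_of_forall_perp A fun p hp =>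
    totallySingular_of_isotropic A hiso hx hp
  have h2 : Module.finrank F U ≤ 2 := by
    classical
    have := finrank_span_finset_le_card (R := F) ({u, v} : Finset V)
    rw [Finset.coe_insert, Finset.coe_singleton] at this
    exact this.trans Finset.card_le_two
  have h3 := card_le_finrank_add_finrank_perp A U
  rw [Fintype.card_fin] at h3
  have h4 := Submodule.finrank_mono hle
  have heq : perp A U = U := Submodule.eq_of_le_of_finrank_le hle (by omega)
  exact hvv (hiso v (by rw [heq]; exact Submodule.subset_span (by simp)))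

theorem exists_partner_in {U : Submodule F V} (hU : Cfsg.Geo.IsNondegenerateOn S.f U) {x : V}
    (hx : x ∈ perp A U) (hx0 : x ≠ 0) (hxx : S.f x x = 0) :
    ∃ w ∈ perp A U, S.f w w = 0 ∧ S.f w x = 1 := by
  obtain ⟨z, hz, hzx⟩ := (perp_nondegenerate A hU x hx hx0).1
  obtain ⟨l, hl⟩ := exists_isotropic_shift A (p := (S.f z x)⁻¹ • z) hxx (by
    show S.f _ _ ≠ 0
    rw [S.sk.smul_left, inv_mul_cancel₀ hzx]; exact one_ne_zero)
  refine ⟨_, add_mem (Submodule.smul_mem _ _ hz) (Submodule.smul_mem _ _ hx), hl, ?_⟩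
  show S.f ((S.f z x)⁻¹ • z + l • x) x = 1
  rw [S.sk.add_left, S.sk.smul_left, S.sk.smul_left, inv_mul_cancel₀ hzx, hxx, mul_zero, add_zero]

theorem nondeg_sup_single {U : Submodule F V} (hU : Cfsg.Geo.IsNondegenerateOn S.f U) {x : V}
    (hx : x ∈ perp A U) (hxx : S.f x x ≠ 0) :
    Cfsg.Geo.IsNondegenerateOn S.f (U ⊔ Submodule.span F {x}) := by
  intro y hy hne
  suffices hs : ∃ z ∈ U ⊔ Submodule.span F {x}, S.f z y ≠ 0 by
    obtain ⟨z, hz, hzy⟩ := hs
    exact ⟨⟨z, hz, hzy⟩, ⟨z, hz, hzy ∘ (eq_zero_comm A).mp⟩⟩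
  obtain ⟨s, hs, t, ht, rfl⟩ := Submodule.mem_sup.mp hy
  obtain ⟨p, rfl⟩ := Submodule.mem_span_singleton.mp ht
  by_contra hcon
  push Not at hcon
  have h1 := hcon x (Submodule.mem_sup_right (Submodule.mem_span_singleton_self x))
  rw [Unitary.add_right A, Unitary.smul_right A, show S.f x s = 0 from hx s hs, zero_add] at h1
  have hp : p = 0 := (EmbeddingLike.map_eq_zero_iff (f := S.σ)).mp ((mul_eq_zero.1 h1).resolve_right hxx)
  subst hp
  have hs0 : s ≠ 0 := fun h => hne (by simp [h])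
  obtain ⟨z, hz, hzs⟩ := (hU s hs hs0).1
  have := hcon z (Submodule.mem_sup_left hz)
  simp at this
  exact hzs (by simpa using this)

theorem nondeg_sup_pair {U : Submodule F V} (hU : Cfsg.Geo.IsNondegenerateOn S.f U) {u w : V}
    (hu : u ∈ perp A U) (hw : w ∈ perp A U) (huu : S.f u u = 0) (hww : S.f w w = 0) (hwu : S.f w u = 1) :
    Cfsg.Geo.IsNondegenerateOn S.f (U ⊔ Submodule.span F {u, w}) := by
  intro x hx hne
  suffices hs : ∃ y ∈ U ⊔ Submodule.span F {u, w}, S.f y x ≠ 0 by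
    obtain ⟨y, hy, hyx⟩ := hs
    exact ⟨⟨y, hy, hyx⟩, ⟨y, hy, hyx ∘ (eq_zero_comm A).mp⟩⟩
  obtain ⟨s, hs, t, ht, rfl⟩ := Submodule.mem_sup.mp hx
  obtain ⟨p, r, rfl⟩ := Submodule.mem_span_pair.mp ht
  by_contra hcon
  push Not at hcon
  have huw : S.f u w = -1 := by rw [S.sk.skew u w, hwu, map_one]
  have h1 := hcon u (Submodule.mem_sup_right (Submodule.subset_span (by simp)))
  have h2 := hcon w (Submodule.mem_sup_right (Submodule.subset_span (by simp)))
  simp only [Unitary.add_right A, Unitary.smul_right A, huu, hww, huw, hwu, show S.f u s = 0 from hu s hs,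
    show S.f w s = 0 from hw s hs] at h1 h2
  have hp : p = 0 := (EmbeddingLike.map_eq_zero_iff (f := S.σ)).mp (by linear_combination h2)
  have hr : r = 0 := (EmbeddingLike.map_eq_zero_iff (f := S.σ)).mp (by linear_combination -h1)
  subst hp hr
  have hs0 : s ≠ 0 := fun h => hne (by simp [h])
  obtain ⟨y, hy, hys⟩ := (hU s hs hs0).1
  have := hcon y (Submodule.mem_sup_left hy)
  simp at this
  exact hys (by simpa using this)

/-- An Eichler element of `SU_n`. -/
theorem exists_E_elt (u b : V) (c : F) (hu : S.f u u = 0) (hb : S.f b u = 0) (hc : c - S.σ c = S.f b b) :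
    ∃ h : SUn, h ∈ S.unip u ∧ gl n q F h = E S.sk u b c hu hb :=
  ⟨_, Setup.E_mem_unip (hu := hu) (hvu := hb) S hc, S.gl_el _ _⟩

section Closed

variable (hn : 4 ≤ n) {p : ℕ} [Fact p.Prime] [CharP F p] (P : Sylow p ↥(Cfsg.SU n F q))
  (T : Subgroup ↥(Cfsg.SU n F q))
  (hcl : ∀ x ∈ T, ∀ g : ↥(Cfsg.SU n F q), x ∈ (P : Subgroup ↥(Cfsg.SU n F q)) →
    g * x * g⁻¹ ∈ (P : Subgroup ↥(Cfsg.SU n F q)) → g * x * g⁻¹ ∈ T)
include hn hcl

theorem exists_conj_le {H : Subgroup SUn} (hH : IsPGroup p H) :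
    ∃ g : SUn, ∀ x ∈ H, g * x * g⁻¹ ∈ (P : Subgroup SUn) := by
  obtain ⟨Q, hQ⟩ := hH.exists_le_sylow
  obtain ⟨g, hg⟩ := MulAction.exists_smul_eq SUn Q P
  refine ⟨g, fun x hx => ?_⟩
  rw [← hg, Sylow.coe_subgroup_smul]
  exact ⟨x, hQ hx, rfl⟩

theorem le_of_root {u : V} (hu0 : u ≠ 0) (huP : S.unip u ≤ (P : Subgroup SUn)) {hu : S.f u u = 0}
    {c₀ : F} {hc₀ : S.σ c₀ = c₀} (h0 : c₀ ≠ 0) (hx₀ : S.tr u hu c₀ hc₀ ∈ T) :
    (P : Subgroup SUn) ≤ T := by
  -- transvections
  have hα : ∀ (v : V) (hv : S.f v v = 0) (d : F) (hd : S.σ d = d),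
      S.tr v hv d hd ∈ (P : Subgroup SUn) → S.tr v hv d hd ∈ T := by
    intro v hv d hd hP
    by_cases hd0 : d = 0
    · subst hd0
      have : S.tr v hv 0 hd = 1 := gl_injective (gl_ext fun x => by simp [S.gl_tr, ap_T A])
      rw [this]; exact one_mem T
    by_cases hv0 : v = 0
    · subst hv0
      have : S.tr 0 hv d hd = 1 := gl_injective (gl_ext fun x => by simp [S.gl_tr, ap_T A])
      rw [this]; exact one_mem T
    obtain ⟨r, hr0, hr⟩ := exists_norm_ne S (d := d / c₀) (by rw [map_div₀, hd, hc₀]) (div_ne_zero hd0 h0)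
    obtain ⟨g, hg⟩ := S.exists_su_move hu (isotropic_smul A hv r) hu0 (smul_ne_zero hr0 hv0)
    have e : g * S.tr u hu c₀ hc₀ * g⁻¹ = S.tr v hv d hd := gl_injective (by
      rw [map_mul, map_mul, map_inv, S.gl_tr, S.gl_tr, conj_T A (S.gl_isom g)]
      refine gl_ext fun x => ?_
      rw [ap_T A, ap_T A, hg, Unitary.smul_right A, smul_smul]
      congr 2
      have : r * S.σ r * c₀ = d := by rw [hr, div_mul_cancel₀ _ h0]
      linear_combination S.f x v * this)
    rw [← e] at hP ⊢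
    exact hcl _ hx₀ g (huP (S.tr_mem_unip hu c₀ hc₀)) hP
  -- isotropic Eichler elements
  have hβ : ∀ b : V, S.f b b = 0 → ∀ hbu : S.f b u = 0, ∀ h : SUn, gl n q F h = E S.sk u b 0 hu hbu → h ∈ T := by
    intro b hb hbu h hh
    have hhP : h ∈ (P : Subgroup SUn) := huP (by
      obtain ⟨h', h'u, h'e⟩ := exists_E_elt S u b 0 hu hbu (by rw [map_zero, sub_self, hb])
      rwa [gl_injective (hh.trans h'e.symm)])
    set W := Submodule.span F ({u, b} : Set V)
    have hW : ∀ a ∈ W, ∀ a' ∈ W, S.f a a' = 0 := by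
      intro a ha a' ha'
      obtain ⟨α, β, rfl⟩ := Submodule.mem_span_pair.1 ha
      obtain ⟨γ, δ, rfl⟩ := Submodule.mem_span_pair.1 ha'
      simp only [S.sk.add_left, S.sk.smul_left, Unitary.add_right A, Unitary.smul_right A, hu, hb, hbu,
        (eq_zero_comm A).1 hbu]
      ring
    have hu' : u ∈ W := Submodule.subset_span (by simp)
    have hb' : b ∈ W := Submodule.subset_span (by simp)
    obtain ⟨g, hg⟩ := exists_conj_le (T := T) hn P hcl (isPGroup_rad S p W)
    have hT : ∀ (v : V) (hv : v ∈ W) (d : F) (hd : S.σ d = d), g * S.tr v (hW v hv v hv) d hd * g⁻¹ ∈ T := by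
      intro v hv d hd
      have h1 := hg _ (tr_mem_rad S hW hv d hd)
      have e : g * S.tr v (hW v hv v hv) d hd * g⁻¹ =
          S.tr (ap (gl n q F g) v) (isotropic_ap A (S.gl_isom g) (hW v hv v hv)) d hd := gl_injective (by
        rw [map_mul, map_mul, map_inv, S.gl_tr, S.gl_tr, conj_T A (S.gl_isom g)])
      rw [e] at h1 ⊢
      exact hα _ _ _ _ h1
    have hsum := W.add_mem hu' hb'
    have e : h = S.tr (u + b) (hW _ hsum _ hsum) 1 (map_one _) * S.tr u (hW u hu' u hu') (-1) (by simp) *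
        S.tr b (hW b hb' b hb') (-1) (by simp) := gl_injective (by
      rw [hh, map_mul, map_mul, S.gl_tr, S.gl_tr, S.gl_tr, E_eq_T_mul A hb (hW _ hsum _ hsum)])
    have hgh : g * h * g⁻¹ ∈ T := by
      rw [e, ← MulAut.conj_apply, map_mul, map_mul, MulAut.conj_apply, MulAut.conj_apply, MulAut.conj_apply]
      exact mul_mem (mul_mem (hT _ hsum _ _) (hT _ hu' _ _)) (hT _ hb' _ _)
    have hghP : g * h * g⁻¹ ∈ (P : Subgroup SUn) := by
      refine hg h ?_
      rw [e]
      exact mul_mem (mul_mem (tr_mem_rad S hW hsum _ _) (tr_mem_rad S hW hu' _ _)) (tr_mem_rad S hW hb' _ _)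
    have := hcl _ hgh g⁻¹ hghP
    rw [inv_inv, show g⁻¹ * (g * h * g⁻¹) * g = h by group] at this
    exact this hhP
  -- the radical
  have hγ : S.unip u ≤ T := by
    intro s hs
    obtain ⟨Q, hQu⟩ := S.exists_partner hu hu0
    have hwu : S.f Q.w u = 1 := hQu ▸ Q.hwu
    obtain ⟨hvu, c, hc, hm⟩ := exists_E_move A (w := Q.w) (y := ap (gl n q F s) Q.w) hu hwu
      (by
        have e := S.f_gl s Q.w u
        rw [hs.1] at e
        exact e.trans hwu) (by exact S.f_gl s Q.w Q.w)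
    obtain ⟨h, hh, he⟩ := exists_E_elt S u _ c hu hvu hc
    set b := ap (gl n q F s) Q.w - Q.w
    have hsh : s = h := by
      refine gl_injective (gl_ext fun x => ?_)
      have hrest : ∀ x, S.f x u = 0 → ap (gl n q F s) x = ap (gl n q F h) x := by
        intro x hx
        obtain ⟨α, hα'⟩ := Submodule.mem_span_singleton.1 (hs.2 x hx)
        have h1 := S.f_gl s x Q.w
        rw [← sub_add_cancel (ap (gl n q F s) x) x, ← hα'] at h1
        rw [← sub_add_cancel (ap (gl n q F s) x) x, ← hα', he, ap_E A, hx]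
        have hsw : ap (gl n q F s) Q.w = b + Q.w := by rw [sub_add_cancel]
        rw [hsw] at h1
        simp only [S.sk.add_left, S.sk.smul_left, Unitary.add_right A, show S.f u Q.w = -1 by
          rw [S.sk.skew u Q.w, hwu, map_one], show S.f u b = 0 from (eq_zero_comm A).1 hvu] at h1
        have : α = S.f x b := by linear_combination -h1
        rw [this]
        module
      have hx : S.f (x - S.f x u • Q.w) u = 0 := by
        rw [Unitary.sub_left A, S.sk.smul_left, hwu, mul_one, sub_self]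
      have h2 := hrest _ hx
      have hm' : ap (gl n q F h) Q.w = ap (gl n q F s) Q.w := by rw [he]; exact hm
      rwa [ap_sub, ap_sub, ap_smul, ap_smul, hm', sub_left_inj] at h2
    have hmulT : ∀ d : F, S.σ d = d → ∀ hd, S.tr u hu d hd ∈ T := fun d _ hd =>
      hα _ _ _ _ (huP (S.tr_mem_unip hu d hd))
    rw [hsh]
    by_cases hbb : S.f b b = 0
    · obtain ⟨h₀, hh₀, he₀⟩ := exists_E_elt S u b 0 hu hvu (by rw [map_zero, sub_self, hbb])
      have hc' : S.σ c = c := by rw [hbb] at hc; exact (sub_eq_zero.1 hc).symm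
      have : h = h₀ * S.tr u hu c hc' := gl_injective (by
        rw [map_mul, he, he₀, S.gl_tr, E_mul_T A, zero_add])
      rw [this]
      exact mul_mem (hβ b hbb hvu h₀ he₀) (hmulT c hc' _)
    obtain ⟨e, heu, heb, hee⟩ := exists_aniso S hn (u := u) hbb
    obtain ⟨v₁, v₂, hv₁, hv₂, hi₁, hi₂, hbv⟩ := exists_isotropic_add A (S := LinearMap.ker (fl S.sk u)) (x := b)
      (e := e) (LinearMap.mem_ker.2 hvu) (LinearMap.mem_ker.2 heu) hee ((eq_zero_comm A).1 heb)
    rw [LinearMap.mem_ker, fl_apply] at hv₁ hv₂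
    obtain ⟨h₁, hh₁, he₁⟩ := exists_E_elt S u v₁ 0 hu hv₁ (by rw [map_zero, sub_self]; exact hi₁.symm)
    obtain ⟨h₂, hh₂, he₂⟩ := exists_E_elt S u v₂ 0 hu hv₂ (by rw [map_zero, sub_self]; exact hi₂.symm)
    have hd : S.σ (c - S.f v₂ v₁) = c - S.f v₂ v₁ := by
      have hc' : c - S.σ c = S.f v₁ v₂ + S.f v₂ v₁ := by
        refine hc.trans ?_
        show S.f b b = _
        rw [hbv, S.sk.add_left, Unitary.add_right A, Unitary.add_right A]
        simp only [show S.f v₁ v₁ = 0 from hi₁, show S.f v₂ v₂ = 0 from hi₂]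
        ring
      have hs2 : S.f v₁ v₂ = -S.σ (S.f v₂ v₁) := S.sk.skew v₁ v₂
      rw [map_sub]
      linear_combination -hc' - hs2
    have : h = h₁ * h₂ * S.tr u hu (c - S.f v₂ v₁) hd := gl_injective (by
      rw [map_mul, map_mul, he, he₁, he₂, S.gl_tr, E_mul_E A (by rw [← hbv]; exact hvu), E_mul_T A]
      refine gl_ext fun x => ?_
      rw [ap_E A, ap_E A, show ap (gl n q F s) Q.w - Q.w = v₁ + v₂ from hbv]
      congr 3
      simp only [Setup.f]
      ring)
    rw [this]
    exact mul_mem (mul_mem (hβ v₁ hi₁ hv₁ h₁ he₁) (hβ v₂ hi₂ hv₂ h₂ he₂)) (hmulT _ hd _)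
  -- radicals of all points
  have hδ : ∀ (a : V), a ≠ 0 → S.f a a = 0 → ∀ s ∈ S.unip a, s ∈ (P : Subgroup SUn) → s ∈ T := by
    intro a ha0 haa s hs hsP
    obtain ⟨g, hg⟩ := S.exists_su_move haa hu ha0 hu0
    have h1 : g * s * g⁻¹ ∈ S.unip u := by
      rw [← rad_span] at hs ⊢
      refine conj_rad S (fun w hw => ?_) (fun w hw => ?_) hs
      · obtain ⟨k, rfl⟩ := Submodule.mem_span_singleton.1 hw
        rw [ap_smul, hg]
        exact Submodule.smul_mem _ _ (Submodule.mem_span_singleton_self u)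
      · obtain ⟨k, rfl⟩ := Submodule.mem_span_singleton.1 hw
        rw [ap_smul, ← hg, ap_inv_ap']
        exact Submodule.smul_mem _ _ (Submodule.mem_span_singleton_self a)
    have := hcl _ (hγ h1) g⁻¹ (huP h1)
    rw [inv_inv, show g⁻¹ * (g * s * g⁻¹) * g = s by group] at this
    exact this hsP
  -- induction on the fixed non-degenerate subspace
  suffices H : ∀ k : ℕ, ∀ U : Submodule F V, Cfsg.Geo.IsNondegenerateOn S.f U →
      Module.finrank F (perp S.sk U) = k → ∀ Q : Subgroup SUn, Q ≤ (P : Subgroup SUn) →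
      Q ≤ fixS (n := n) (q := q) U → Q ≤ T from
    H _ ⊥ (fun x hx hne => absurd ((Submodule.mem_bot F).mp hx) hne) rfl _ le_rfl
      (fun s _ x hx => by rw [(Submodule.mem_bot F).mp hx, ap_zero])
  intro k
  induction k using Nat.strong_induction_on with
  | _ k ih =>
  intro U hU hk Q hQP hQU
  have hstab : ∀ s : SUn, s ∈ fixS (n := n) (q := q) U → ∀ x ∈ perp A U,
      ap (gl n q F s) x ∈ perp A U := fun s hs x hx w hw => by
    have e := S.f_gl s x w
    rw [hs w hw] at e
    exact e.trans (hx w hw)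
  by_cases hbot : perp A U = ⊥
  · intro s hs
    have : s = 1 := gl_injective (gl_ext fun z => by
      obtain ⟨a, ha, hza⟩ := exists_sub_mem_perp A hU z
      rw [hbot, Submodule.mem_bot, sub_eq_zero] at hza
      rw [map_one, ap_one, hza, hQU hs a ha])
    rw [this]; exact one_mem T
  have hQp : IsPGroup p Q := P.isPGroup'.to_le hQP
  obtain ⟨x, hxU, hx0, hxfix⟩ : ∃ x ∈ perp A U, x ≠ 0 ∧ ∀ s ∈ Q, ap (gl n q F s) x = x := by
    let X := {v : V // v ∈ perp A U ∧ v ≠ 0}
    letI : MulAction Q X :=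
      { smul := fun s v => ⟨ap (gl n q F s.1) v.1, hstab _ (hQU s.2) _ v.2.1, ap_ne_zero _ v.2.2⟩
        one_smul := fun v => Subtype.ext (by
          show ap (gl n q F (1 : SUn)) v.1 = v.1
          rw [map_one, ap_one])
        mul_smul := fun a b v => Subtype.ext (by
          show ap (gl n q F (a.1 * b.1)) v.1 = _
          rw [map_mul, ap_mul]; rfl) }
    haveI : Finite X := Subtype.finite
    have hnd : ¬ p ∣ Nat.card X := by
      have hc : Nat.card X + 1 = Nat.card (perp A U : Submodule F V) := by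
        classical
        haveI := Fintype.ofFinite F
        haveI : Fintype X := Fintype.ofFinite X
        rw [Nat.card_eq_fintype_card, Nat.card_eq_fintype_card, Fintype.card_subtype, Fintype.card_subtype,
          ← Finset.card_insert_of_notMem (a := (0 : V)) (by simp)]
        congr 1
        ext v
        rcases eq_or_ne v 0 with rfl | hv <;> simp [*]
      haveI := Fintype.ofFinite F
      obtain ⟨f, hf0, hf⟩ := CfsgLib.ClassicalLinear.card_field_eq_pow (F := F) p
      rw [show Nat.card (perp A U : Submodule F V) = Nat.card F ^ Module.finrank F (perp A U : Submodule F V) from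
        Module.natCard_eq_pow_finrank, Nat.card_eq_fintype_card (α := F),
        hf, ← pow_mul] at hc
      intro hd
      have hk0 : Module.finrank F (perp A U : Submodule F V) ≠ 0 := fun h => hbot (Submodule.finrank_eq_zero.1 h)
      have : p ∣ Nat.card X + 1 := hc ▸ dvd_pow_self p (Nat.mul_ne_zero hf0.ne' hk0)
      exact (Fact.out : p.Prime).one_lt.ne' (Nat.dvd_one.1 ((Nat.dvd_add_right hd).1 this))
    obtain ⟨⟨x, hxU, hx0⟩, hfix⟩ := CfsgLib.ClassicalAut.exists_fixed (α := X) hQp hnd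
    exact ⟨x, hxU, hx0, fun s hs => congrArg Subtype.val (hfix ⟨s, hs⟩)⟩
  by_cases hxx : S.f x x = 0
  swap
  · refine ih _ ?_ (U ⊔ Submodule.span F {x}) (nondeg_sup_single S hU hxU hxx) rfl Q hQP ?_
    · have h1 := finrank_add_perp A hU
      have h2 := finrank_add_perp A (nondeg_sup_single S hU hxU hxx)
      have h3 : U < U ⊔ Submodule.span F {x} := by
        refine lt_of_le_of_ne le_sup_left fun he => ?_
        have hm : x ∈ U := he ▸ Submodule.mem_sup_right (Submodule.mem_span_singleton_self x)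
        exact hxx (hxU x hm)
      have h4 := Submodule.finrank_lt_finrank_of_lt h3
      omega
    · intro s hs z hz
      obtain ⟨a, ha, b, hb, rfl⟩ := Submodule.mem_sup.1 hz
      obtain ⟨r, rfl⟩ := Submodule.mem_span_singleton.1 hb
      rw [ap_add, ap_smul, hQU hs a ha, hxfix s hs]
  obtain ⟨w, hwU, hww, hwx⟩ := exists_partner_in S hU hxU hx0 hxx
  set N : Subgroup SUn := S.unip x ⊓ fixS (n := n) (q := q) U with hN
  have hnorm : Q ≤ Subgroup.normalizer (N : Set SUn) := by
    intro s hs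
    refine CharPSimple.mem_normalizer_of_conj_mem fun t ht => ⟨S.conj_mem_unip (r := 1) (by
      rw [one_smul, hxfix s hs]) ht.1, ?_⟩
    exact (fixS U).mul_mem ((fixS U).mul_mem (hQU hs) ht.2) ((fixS U).inv_mem (hQU hs))
  have hQ' : IsPGroup p (Q ⊔ N : Subgroup SUn) :=
    hQp.to_sup_of_normal_right' ((S.isPGroup_unip p).to_le inf_le_left) hnorm
  obtain ⟨g, hg⟩ := exists_conj_le (T := T) hn P hcl hQ'
  set U' := U ⊔ Submodule.span F {x, w}
  intro s hs
  obtain ⟨hvu, c, hc, hm⟩ := exists_E_move A (w := w) (y := ap (gl n q F s) w) hxx hwx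
    (by
      have e := S.f_gl s w x
      rw [hxfix s hs] at e
      exact e.trans hwx) (by exact S.f_gl s w w)
  obtain ⟨h, hh, he⟩ := exists_E_elt S x _ c hxx hvu hc
  have hhN : h ∈ N := by
    refine ⟨hh, fun a ha => ?_⟩
    rw [he, ap_E A, show S.f a x = 0 from (eq_zero_comm A).1 (hxU a ha),
      show S.f a (ap (gl n q F s) w - w) = 0 from
        (eq_zero_comm A).1 ((sub_mem (hstab s (hQU hs) w hwU) hwU : _ ∈ perp A U) a ha)]
    simp
  have hs' : h⁻¹ * s ∈ (Q ⊔ N) ⊓ fixS (n := n) (q := q) U' := by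
    refine ⟨(Q ⊔ N).mul_mem ((Q ⊔ N).inv_mem (Subgroup.mem_sup_right hhN)) (Subgroup.mem_sup_left hs), fun z hz => ?_⟩
    obtain ⟨a, ha, b, hb, rfl⟩ := Submodule.mem_sup.1 hz
    obtain ⟨α, β, rfl⟩ := Submodule.mem_span_pair.1 hb
    have e1 : ap (gl n q F (h⁻¹ * s)) x = x := by
      rw [map_mul, ap_mul, hxfix s hs, fix_inv hh.1]
    have e2 : ap (gl n q F (h⁻¹ * s)) w = w := by
      have hm' : ap (gl n q F h) w = ap (gl n q F s) w := by rw [he]; exact hm
      rw [map_mul, ap_mul, ← hm', ap_inv_ap']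
    rw [ap_add, ap_add, ap_smul, ap_smul, e1, e2, (fixS U).mul_mem ((fixS U).inv_mem hhN.2) (hQU hs) a ha]
  have hU' := nondeg_sup_pair S hU hxU hwU hxx hww hwx
  -- the conjugate data
  let L : Submodule F V →  Submodule F V := fun X => X.comap
    (Matrix.mulVecLin ((gl n q F g⁻¹ : GL (Fin n) F) : Matrix (Fin n) (Fin n) F))
  have hL : ∀ (X : Submodule F V) (z : V), z ∈ L X ↔ ap (gl n q F g⁻¹) z ∈ X := fun X z => Iff.rfl
  have hnd : Cfsg.Geo.IsNondegenerateOn S.f (L U') := by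
    intro z hz hz0
    obtain ⟨⟨a, ha, h1⟩, ⟨b, hb, h2⟩⟩ := hU' _ ((hL _ _).1 hz) (ap_ne_zero _ hz0)
    refine ⟨⟨ap (gl n q F g) a, (hL _ _).2 (by rwa [ap_inv_ap']), ?_⟩,
      ⟨ap (gl n q F g) b, (hL _ _).2 (by rwa [ap_inv_ap']), ?_⟩⟩
    · have e := S.f_gl g a (ap (gl n q F g⁻¹) z)
      rw [ap_ap_inv'] at e
      show S.f _ _ ≠ 0
      rw [e]; exact h1
    · have e := S.f_gl g (ap (gl n q F g⁻¹) z) b
      rw [ap_ap_inv'] at e
      show S.f _ _ ≠ 0
      rw [e]; exact h2
  have hlt : Module.finrank F (perp A (L U') : Submodule F V) < k := by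
    have h1 := finrank_add_perp A hU
    have h2 := finrank_add_perp A hnd
    have h3 : U < U' := by
      refine lt_of_le_of_ne le_sup_left fun he' => ?_
      have hm' : x ∈ U := he' ▸ Submodule.mem_sup_right (Submodule.subset_span (by simp))
      have h0 : x ∈ U ⊓ perp A U := ⟨hm', hxU⟩
      rw [inf_perp_eq_bot A hU, Submodule.mem_bot] at h0
      exact hx0 h0
    have h4 := Submodule.finrank_lt_finrank_of_lt h3
    have h5 : Module.finrank F U' ≤ Module.finrank F (L U') := by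
      refine LinearMap.finrank_le_finrank_of_injective (f :=
        (Matrix.mulVecLin ((gl n q F g : GL (Fin n) F) : Matrix (Fin n) (Fin n) F)).restrict
          (p := U') (q := L U') fun z hz => (hL _ _).2 (show ap (gl n q F g⁻¹) (ap (gl n q F g) z) ∈ U' by
            rwa [ap_inv_ap'])) fun z z' hzz => Subtype.ext ?_
      have := congrArg (fun w : L U' => ap (gl n q F g⁻¹) w.1) hzz
      exact (ap_inv_ap' g z.1).symm.trans (this.trans (ap_inv_ap' g z'.1))
    omega
  have hgs' : g * (h⁻¹ * s) * g⁻¹ ∈ T := by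
    refine ih _ hlt (L U') hnd rfl (((Q ⊔ N) ⊓ fixS (n := n) (q := q) U').map (MulAut.conj g).toMonoidHom) ?_ ?_
      ⟨_, hs', rfl⟩
    · rintro _ ⟨t, ht, rfl⟩
      exact hg t ht.1
    · rintro _ ⟨t, ht, rfl⟩ z hz
      show ap (gl n q F (g * t * g⁻¹)) z = z
      rw [map_mul, map_mul, ap_mul, ap_mul, ht.2 _ ((hL _ _).1 hz), ap_ap_inv']
  have hgh : g * h * g⁻¹ ∈ T := by
    refine hδ (ap (gl n q F g) x) (ap_ne_zero _ hx0) (isotropic_ap A (S.gl_isom g) hxx) _ ?_
      (hg h (Subgroup.mem_sup_right hhN))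
    rw [← rad_span] at hh ⊢
    refine conj_rad S (fun y hy => ?_) (fun y hy => ?_) hh
    · obtain ⟨r, rfl⟩ := Submodule.mem_span_singleton.1 hy
      rw [ap_smul]
      exact Submodule.smul_mem _ _ (Submodule.mem_span_singleton_self _)
    · obtain ⟨r, rfl⟩ := Submodule.mem_span_singleton.1 hy
      rw [ap_smul, ap_inv_ap']
      exact Submodule.smul_mem _ _ (Submodule.mem_span_singleton_self x)
  have hgs : g * s * g⁻¹ ∈ T := by
    have := mul_mem hgh hgs'
    rwa [show g * h * g⁻¹ * (g * (h⁻¹ * s) * g⁻¹) = g * s * g⁻¹ by group] at this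
  have := hcl _ hgs g⁻¹ (hg s (Subgroup.mem_sup_left hs))
  rw [inv_inv, show g⁻¹ * (g * s * g⁻¹) * g = s by group] at this
  exact this (hQP hs)

end Closed

/-- A second vector stabilised by a Sylow subgroup modulo the fixed one. -/
theorem exists_second (hn : 4 ≤ n) {p : ℕ} [Fact p.Prime] [CharP F p] (P : Sylow p ↥(Cfsg.SU n F q)) {u : V}
    (hu0 : u ≠ 0) (hu : S.f u u = 0) (hPu : ∀ s ∈ (P : Subgroup SUn), ap (gl n q F s) u = u)
    (huP : S.unip u ≤ (P : Subgroup SUn)) :
    ∃ v : V, v ∉ Submodule.span F {u} ∧ S.f v u = 0 ∧ S.f v v = 0 ∧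
      ∀ s ∈ (P : Subgroup SUn), ap (gl n q F s) v - v ∈ Submodule.span F {u} := by
  let Φ : Submodule F V :=
    { carrier := {x | S.f x u = 0 ∧ ∀ s ∈ (P : Subgroup SUn), ap (gl n q F s) x - x ∈ Submodule.span F {u}}
      add_mem' := by
        rintro a b ⟨ha, ha'⟩ ⟨hb, hb'⟩
        refine ⟨(S.sk.add_left a b u).trans (by rw [ha, hb, add_zero]), fun s hs => ?_⟩
        rw [ap_add, show ap (gl n q F s) a + ap (gl n q F s) b - (a + b) =
          (ap (gl n q F s) a - a) + (ap (gl n q F s) b - b) by abel]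
        exact add_mem (ha' s hs) (hb' s hs)
      zero_mem' := ⟨Unitary.zero_left A u, fun s _ => by rw [ap_zero, sub_zero]; exact zero_mem _⟩
      smul_mem' := by
        rintro c a ⟨ha, ha'⟩
        refine ⟨(S.sk.smul_left c a u).trans (by rw [ha, mul_zero]), fun s hs => ?_⟩
        rw [ap_smul, ← smul_sub]
        exact Submodule.smul_mem _ c (ha' s hs) }
  have huΦ : u ∈ Φ := ⟨hu, fun s hs => by rw [hPu s hs, sub_self]; exact zero_mem _⟩
  set Ψ := perp S.sk Φ with hΨ
  have huΨ : u ∈ Ψ := fun x hx => (eq_zero_comm A).1 hx.1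
  have hΨu : ∀ x ∈ Ψ, S.f x u = 0 := fun x hx => hx u huΦ
  have hΦs : ∀ s ∈ (P : Subgroup SUn), ∀ x ∈ Φ, ap (gl n q F s) x ∈ Φ := fun s hs x hx => by
    obtain ⟨α, hα⟩ := Submodule.mem_span_singleton.1 (hx.2 s hs)
    rw [← sub_add_cancel (ap (gl n q F s) x) x, ← hα]
    exact add_mem (Submodule.smul_mem _ α huΦ) hx
  have hΨs : ∀ s ∈ (P : Subgroup SUn), ∀ x ∈ Ψ, ap (gl n q F s) x ∈ Ψ := by
    intro s hs x hx w hw
    have e := S.f_gl s x (ap (gl n q F s⁻¹) w)
    rw [ap_ap_inv'] at e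
    exact e.trans (hx _ (hΦs _ (inv_mem hs) w hw))
  by_cases hle : Ψ ≤ Submodule.span F {u}
  · exfalso
    obtain ⟨Q, hQu⟩ := S.exists_partner hu hu0
    have hwu : S.f Q.w u = 1 := hQu ▸ Q.hwu
    have hall : ∀ x, S.f x u = 0 → x ∈ Φ := fun x hx => by
      refine perp_perp_le A Φ ?_
      intro y hy
      obtain ⟨α, rfl⟩ := Submodule.mem_span_singleton.1 (hle hy)
      show S.f x (α • u) = 0
      rw [Unitary.smul_right A, hx, mul_zero]
    have hPun : (P : Subgroup SUn) ≤ S.unip u := fun s hs => ⟨hPu s hs, fun x hx => (hall x hx).2 s hs⟩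
    have hU : Cfsg.Geo.IsNondegenerateOn S.f ((⊥ : Submodule F V) ⊔ Submodule.span F {u, Q.w}) :=
      nondeg_sup_pair S (fun x hx hne => absurd ((Submodule.mem_bot F).mp hx) hne)
        (mem_perp_bot A _) (mem_perp_bot A _) hu Q.hww hwu
    set U := (⊥ : Submodule F V) ⊔ Submodule.span F {u, Q.w} with hUdef
    have hdim : 2 ≤ Module.finrank F (perp A U : Submodule F V) := by
      have h1 := finrank_add_perp A hU
      have h2 : Module.finrank F U ≤ 2 := by
        classical
        rw [hUdef, bot_sup_eq]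
        have := finrank_span_finset_le_card (R := F) ({u, Q.w} : Finset V)
        rw [Finset.coe_insert, Finset.coe_singleton] at this
        exact this.trans Finset.card_le_two
      rw [Fintype.card_fin] at h1
      omega
    obtain ⟨v, hvU, hv0, hvv⟩ := exists_isotropic A (perp_nondegenerate A hU) hdim
    obtain ⟨w', hw'U, -, hw'v⟩ := exists_partner_in S hU hvU hv0 hvv
    have huU : u ∈ U := Submodule.mem_sup_right (Submodule.subset_span (by simp))
    have hwU : Q.w ∈ U := Submodule.mem_sup_right (Submodule.subset_span (by simp))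
    set t := S.tr v hvv 1 (map_one _)
    have htu : ap (gl n q F t) u = u := by
      rw [S.gl_tr, ap_T_fix A _ ((eq_zero_comm A).1 (hvU u huU))]
    have htN : (Subgroup.zpowers t) ≤ Subgroup.normalizer ((P : Subgroup SUn) : Set SUn) := by
      rw [Subgroup.zpowers_le]
      refine CharPSimple.mem_normalizer_of_conj_mem fun x hx => ?_
      exact huP (S.conj_mem_unip (r := 1) (by rw [one_smul, htu]) (hPun hx))
    have htp : IsPGroup p (Subgroup.zpowers t) := by
      refine (isPGroup_rad S p (Submodule.span F {v})).to_le ((Subgroup.zpowers_le).2 ?_)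
      rw [rad_span]
      exact S.tr_mem_unip hvv 1 (map_one _)
    have hsup : IsPGroup p ((P : Subgroup SUn) ⊔ Subgroup.zpowers t : Subgroup SUn) := by
      rw [sup_comm]
      exact htp.to_sup_of_normal_right' P.isPGroup' htN
    have htP : t ∈ (P : Subgroup SUn) :=
      (P.is_maximal' hsup le_sup_left).le (Subgroup.mem_sup_right (Subgroup.mem_zpowers t))
    obtain ⟨α, hα⟩ := Submodule.mem_span_singleton.1 ((hPun htP).2 w' (hw'U u huU))
    rw [S.gl_tr, ap_T A, show S.f w' v = 1 from hw'v, one_mul, one_smul, add_sub_cancel_left] at hα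
    have h := hvU Q.w hwU
    rw [← hα, show S.f (α • u) Q.w = α * S.f u Q.w from S.sk.smul_left α u Q.w,
      show S.f u Q.w = -1 by rw [S.sk.skew u Q.w, hwu, map_one]] at h
    exact hv0 (by rw [← hα, show α = 0 by linear_combination -h, zero_smul])
  set N := (Submodule.span F {u}).comap Ψ.subtype
  let act : ↥(P : Subgroup SUn) → (Ψ →ₗ[F] Ψ) := fun s =>
    (Matrix.mulVecLin ((gl n q F s.1 : GL (Fin n) F) : Matrix (Fin n) (Fin n) F)).restrict
      (p := Ψ) (q := Ψ) fun x hx => hΨs _ s.2 x hx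
  have hact : ∀ s, N ≤ N.comap (act s) := fun s x hx => by
    obtain ⟨α, hα⟩ := Submodule.mem_span_singleton.1 (show (x : V) ∈ Submodule.span F {u} from hx)
    show ap (gl n q F s.1) (x : V) ∈ Submodule.span F {u}
    rw [← hα, ap_smul, hPu _ s.2]
    exact Submodule.smul_mem _ α (Submodule.mem_span_singleton_self u)
  have hinj : ∀ (s : (P : Subgroup SUn)) (y : Ψ ⧸ N), y ≠ 0 → N.mapQ N (act s) (hact s) y ≠ 0 := by
    intro s y
    refine Submodule.Quotient.induction_on N y fun x hx h => hx ?_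
    rw [Submodule.mapQ_apply, Submodule.Quotient.mk_eq_zero] at h
    rw [Submodule.Quotient.mk_eq_zero]
    obtain ⟨α, hα⟩ := Submodule.mem_span_singleton.1
      (show ap (gl n q F s.1) (x : V) ∈ Submodule.span F {u} from h)
    show (x : V) ∈ Submodule.span F {u}
    rw [← ap_inv_ap' s.1 (x : V), ← hα, ap_smul, fix_inv (hPu _ s.2)]
    exact Submodule.smul_mem _ α (Submodule.mem_span_singleton_self u)
  let X := {y : Ψ ⧸ N // y ≠ 0}
  letI : MulAction (P : Subgroup SUn) X :=
    { smul := fun s y => ⟨N.mapQ N (act s) (hact s) y.1, hinj s y.1 y.2⟩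
      one_smul := fun y => Subtype.ext (by
        show N.mapQ N (act 1) (hact 1) y.1 = y.1
        refine Submodule.Quotient.induction_on N y.1 fun x => ?_
        rw [Submodule.mapQ_apply]
        congr 1
        exact Subtype.ext (show ap (gl n q F (1 : SUn)) (x : V) = x by rw [map_one, ap_one]))
      mul_smul := fun a b y => Subtype.ext (by
        show N.mapQ N (act (a * b)) (hact _) y.1 = N.mapQ N (act a) (hact a) (N.mapQ N (act b) (hact b) y.1)
        refine Submodule.Quotient.induction_on N y.1 fun x => ?_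
        rw [Submodule.mapQ_apply, Submodule.mapQ_apply, Submodule.mapQ_apply]
        congr 1
        exact Subtype.ext (show ap (gl n q F (a.1 * b.1)) (x : V) = _ by rw [map_mul, ap_mul]; rfl)) }
  haveI : Finite (Ψ ⧸ N) := Finite.of_surjective _ (Submodule.Quotient.mk_surjective N)
  haveI : Finite X := Subtype.finite
  have hnd : ¬ p ∣ Nat.card X := by
    have hc : Nat.card X + 1 = Nat.card (Ψ ⧸ N) := by
      classical
      haveI := Fintype.ofFinite (Ψ ⧸ N)
      haveI : Fintype X := Fintype.ofFinite X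
      rw [Nat.card_eq_fintype_card, Nat.card_eq_fintype_card, Fintype.card_subtype,
        ← Finset.card_insert_of_notMem (a := (0 : Ψ ⧸ N)) (by simp), ← Finset.card_univ]
      congr 1
      ext v
      rcases eq_or_ne v 0 with rfl | hv <;> simp [*]
    haveI := Fintype.ofFinite F
    obtain ⟨f, hf0, hf⟩ := CfsgLib.ClassicalLinear.card_field_eq_pow (F := F) p
    rw [show Nat.card (Ψ ⧸ N) = Nat.card F ^ Module.finrank F (Ψ ⧸ N) from
      Module.natCard_eq_pow_finrank, Nat.card_eq_fintype_card (α := F), hf, ← pow_mul] at hc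
    intro hd
    have hk0 : Module.finrank F (Ψ ⧸ N) ≠ 0 := fun h => hle fun x hx => by
      haveI : Subsingleton (Ψ ⧸ N) := Module.finrank_zero_iff.1 h
      have : (Submodule.Quotient.mk ⟨x, hx⟩ : Ψ ⧸ N) = 0 := Subsingleton.elim _ _
      exact (Submodule.Quotient.mk_eq_zero N).1 this
    have : p ∣ Nat.card X + 1 := hc ▸ dvd_pow_self p (Nat.mul_ne_zero hf0.ne' hk0)
    exact (Fact.out : p.Prime).one_lt.ne' (Nat.dvd_one.1 ((Nat.dvd_add_right hd).1 this))
  obtain ⟨⟨y, hy⟩, hfix⟩ := CfsgLib.ClassicalAut.exists_fixed (α := X) P.isPGroup' hnd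
  obtain ⟨⟨v, hvΨ⟩, rfl⟩ := Submodule.Quotient.mk_surjective N y
  have hv : ∀ s ∈ (P : Subgroup SUn), ap (gl n q F s) v - v ∈ Submodule.span F {u} := by
    intro s hs
    have h := congrArg Subtype.val (hfix ⟨s, hs⟩)
    change N.mapQ N (act ⟨s, hs⟩) (hact _) (Submodule.Quotient.mk ⟨v, hvΨ⟩) = Submodule.Quotient.mk ⟨v, hvΨ⟩ at h
    rw [Submodule.mapQ_apply, Submodule.Quotient.eq] at h
    exact h
  exact ⟨v, fun h => hy ((Submodule.Quotient.mk_eq_zero N).2 h), hΨu v hvΨ, hvΨ v ⟨hΨu v hvΨ, hv⟩, hv⟩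

section Coordinates

variable {G : Type*} [Group G] [Finite G] {p : ℕ} [Fact p.Prime] [CharP F p]
  (π : ↥(Cfsg.SU n F q) →* G) (hπ : Function.Surjective π)
  (hker : ∀ a b : ↥(Cfsg.SU n F q), π a = π b ↔ cl a = cl b)
include S hker

theorem eq_of_proj {a b : SUn} {i j : ℕ} (ha : a ^ p ^ i = 1) (hb : b ^ p ^ j = 1) (h : π a = π b) : a = b := by
  obtain ⟨c, hc⟩ := S.scalar_of_cl_eq ((hker a b).1 h)
  have hpow : ∀ k : ℕ, ∀ x, ap (gl n q F (b ^ k)) x = c ^ k • ap (gl n q F (a ^ k)) x := by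
    intro k
    induction k with
    | zero => intro x; simp
    | succ k ih =>
      intro x
      rw [pow_succ', map_mul, ap_mul, ih, ap_smul, hc, smul_smul, pow_succ' a, map_mul, ap_mul, pow_succ c]
  have h0 : ∃ x : V, x ≠ 0 := by
    obtain ⟨x, hx, -⟩ := S.exists_perp_two 0 0
    exact ⟨x, hx⟩
  obtain ⟨x₀, hx₀⟩ := h0
  have hN : ∀ {z : SUn} {k : ℕ}, z ^ p ^ k = 1 → k ≤ i + j → z ^ p ^ (i + j) = 1 := fun {z k} hz hk => by
    obtain ⟨d, hd⟩ := Nat.exists_eq_add_of_le hk
    rw [hd, pow_add, pow_mul, hz, one_pow]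
  have h1 := hpow (p ^ (i + j)) x₀
  rw [hN ha (by omega), hN hb (by omega), map_one, ap_one] at h1
  have h2 : c ^ p ^ (i + j) = 1 :=
    (smul_left_injective F hx₀ (show (1 : F) • x₀ = c ^ p ^ (i + j) • x₀ by rw [one_smul]; exact h1)).symm
  have h3 : (c - 1) ^ p ^ (i + j) = 0 := by rw [sub_pow_char_pow, one_pow, h2, sub_self]
  have hc1 : c = 1 := sub_eq_zero.1 (pow_eq_zero_iff (pow_ne_zero _ (Fact.out : p.Prime).ne_zero) |>.1 h3)
  exact (gl_injective (gl_ext fun x => by rw [hc x, hc1, one_smul])).symm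

variable (P : Sylow p ↥(Cfsg.SU n F q)) (T : Sylow p G)
  (hT : (T : Subgroup G) = (P : Subgroup ↥(Cfsg.SU n F q)).map π)
include hT hπ

theorem mem_P {x : SUn} {i : ℕ} (hx : x ^ p ^ i = 1) (h : π x ∈ (T : Subgroup G)) : x ∈ (P : Subgroup SUn) := by
  obtain ⟨y, hy, e⟩ : π x ∈ (P : Subgroup SUn).map π := hT ▸ h
  obtain ⟨k, hk⟩ := P.isPGroup' ⟨y, hy⟩
  exact eq_of_proj S π hker (congrArg Subtype.val hk) hx e ▸ hy

theorem stronglyClosed_top (hn : 4 ≤ n) {u : V} (hu0 : u ≠ 0) (hu : S.f u u = 0)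
    (huP : S.unip u ≤ (P : Subgroup SUn)) {H : Subgroup G}
    (hH : (Cfsg.groupFusionSystem (T : Subgroup G)).StronglyClosed H) (hne : H ≠ ⊥) : (T : Subgroup G) ≤ H := by
  obtain ⟨z, hzH, hz1, hzc⟩ := CharPSimple.exists_mem_center T hH hne
  obtain ⟨x, rfl⟩ := hπ z
  have hcomm : ∀ t ∈ S.unip u, cl x * cl t = cl t * cl x := fun t ht => by
    have h := (hzc (π t) (hT ▸ ⟨t, huP ht, rfl⟩)).symm
    rw [← map_mul, ← map_mul, hker] at h
    exact h
  rcases S.centralizer_unip hu hu0 hcomm with h | ⟨hu', c, hc, hc0, h⟩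
  · exact absurd (((hker x 1).2 (h.trans rfl)).trans (map_one π)) hz1
  have hle : (P : Subgroup SUn) ≤ H.comap π := by
    refine le_of_root S hn P (H.comap π) (fun y hy g _ hgP => ?_) hu0 huP (hu := hu') (hc₀ := hc) hc0 ?_
    · show π (g * y * g⁻¹) ∈ H
      rw [map_mul, map_mul, map_inv]
      refine CharPSimple.mem_of_closed hH hy _ ?_
      rw [← map_inv, ← map_mul, ← map_mul, hT]
      exact ⟨_, hgP, rfl⟩
    · show π _ ∈ H
      rw [← (hker x _).2 h]
      exact hzH
  rw [hT]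
  exact Subgroup.map_le_iff_le_comap.2 hle

theorem mem_normalizer_map {H : Subgroup SUn} {s : SUn} (h : ∀ r ∈ H, s * r * s⁻¹ ∈ H) :
    π s ∈ Subgroup.normalizer ((H.map π : Subgroup G) : Set G) := by
  refine CharPSimple.mem_normalizer_of_conj_mem ?_
  rintro _ ⟨r, hr, rfl⟩
  exact ⟨_, h r hr, by rw [map_mul, map_mul, map_inv]⟩

theorem normalizer_le (hn : 4 ≤ n) {u : V} (hu0 : u ≠ 0) (hu : S.f u u = 0)
    (hPu : ∀ s ∈ (P : Subgroup SUn), ap (gl n q F s) u = u) (huP : S.unip u ≤ (P : Subgroup SUn)) :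
    Subgroup.normalizer ((T : Subgroup G) : Set G) ≤ (T : Subgroup G) ⊔ Subgroup.closure
      {t | t ∈ Subgroup.normalizer ((T : Subgroup G) : Set G) ∧ ∃ R : Subgroup G,
        (Cfsg.groupFusionSystem (T : Subgroup G)).IsCentric R ∧
        (T : Subgroup G) ≤ Subgroup.normalizer (R : Set G) ∧ t ∈ CharPSimple.pNorm p R} := by
  have hNu : ∀ {s : SUn}, ap (gl n q F s) u = u → ∀ r ∈ S.unip u, s * r * s⁻¹ ∈ S.unip u :=
    fun hs r hr => S.conj_mem_unip (r := 1) (by rw [one_smul, hs]) hr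
  have hR1c : (Cfsg.groupFusionSystem (T : Subgroup G)).IsCentric ((S.unip u).map π) := by
    refine CharPSimple.isCentric_of_centralizer_le (hT ▸ Subgroup.map_mono huP) fun g hg => ?_
    obtain ⟨x, rfl⟩ := hπ g
    rcases S.centralizer_unip hu hu0 (s := x) (fun t ht => by
      have h := hg (π t) ⟨t, ht, rfl⟩
      rw [Commute, SemiconjBy, ← map_mul, ← map_mul, hker] at h
      exact h) with h | ⟨hu', c, hc, -, h⟩
    · exact ⟨1, one_mem _, (hker _ _).2 h.symm⟩
    · exact ⟨_, S.tr_mem_unip hu' c hc, (hker _ _).2 h.symm⟩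
  have hT1 : (T : Subgroup G) ≤ Subgroup.normalizer (((S.unip u).map π : Subgroup G) : Set G) := by
    rw [hT]
    rintro _ ⟨s, hs, rfl⟩
    exact mem_normalizer_map S π hπ hker P T hT (hNu (hPu s hs))
  obtain ⟨v, hvu, hvu0, hvv, hv⟩ := exists_second S hn P hu0 hu hPu huP
  set W := Submodule.span F ({u, v} : Set V)
  have huW : u ∈ W := Submodule.subset_span (by simp)
  have hvW : v ∈ W := Submodule.subset_span (by simp)
  have hspu : Submodule.span F {u} ≤ W := Submodule.span_mono (by simp)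
  have hW : ∀ a ∈ W, ∀ a' ∈ W, S.f a a' = 0 := by
    intro a ha a' ha'
    obtain ⟨α, β, rfl⟩ := Submodule.mem_span_pair.1 ha
    obtain ⟨γ, δ, rfl⟩ := Submodule.mem_span_pair.1 ha'
    simp only [S.sk.add_left, S.sk.smul_left, Unitary.add_right A, Unitary.smul_right A, hu, hvv, hvu0,
      (eq_zero_comm A).1 hvu0]
    ring
  have hWN : ∀ {s : SUn}, ap (gl n q F s) u ∈ W → ap (gl n q F s) v ∈ W → ap (gl n q F s⁻¹) u ∈ W →
      ap (gl n q F s⁻¹) v ∈ W → ∀ r ∈ rad S W, s * r * s⁻¹ ∈ rad S W := by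
    intro s h1 h2 h3 h4 r hr
    refine conj_rad S (fun w hw => ?_) (fun w hw => ?_) hr
    · obtain ⟨α, β, rfl⟩ := Submodule.mem_span_pair.1 hw
      rw [ap_add, ap_smul, ap_smul]
      exact add_mem (Submodule.smul_mem _ _ h1) (Submodule.smul_mem _ _ h2)
    · obtain ⟨α, β, rfl⟩ := Submodule.mem_span_pair.1 hw
      rw [ap_add, ap_smul, ap_smul]
      exact add_mem (Submodule.smul_mem _ _ h3) (Submodule.smul_mem _ _ h4)
  have hPW : ∀ s ∈ (P : Subgroup SUn), ∀ r ∈ rad S W, s * r * s⁻¹ ∈ rad S W := by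
    intro s hs
    have hv' : ∀ t ∈ (P : Subgroup SUn), ap (gl n q F t) v ∈ W := fun t ht => by
      rw [← sub_add_cancel (ap (gl n q F t) v) v]
      exact add_mem (hspu (hv t ht)) hvW
    exact hWN (by rw [hPu s hs]; exact huW) (hv' s hs) (by rw [hPu _ (inv_mem hs)]; exact huW) (hv' _ (inv_mem hs))
  have hradP : rad S W ≤ (P : Subgroup SUn) := by
    have hsup := P.isPGroup'.to_sup_of_normal_right' (isPGroup_rad S p W) fun s hs =>
      CharPSimple.mem_normalizer_of_conj_mem (hPW s hs)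
    exact le_sup_right.trans (P.is_maximal' hsup le_sup_left).le
  have hR2c : (Cfsg.groupFusionSystem (T : Subgroup G)).IsCentric ((rad S W).map π) := by
    refine CharPSimple.isCentric_of_centralizer_le (hT ▸ Subgroup.map_mono hradP) fun g hg => ?_
    obtain ⟨x, rfl⟩ := hπ g
    have hroot : ∀ a ∈ W, a ≠ 0 → ∃ r : F, r * S.σ r = 1 ∧ ap (gl n q F x) a = r • a := by
      intro a ha ha0
      refine (S.commute_root_iff ha0 (S.rootAt_one (hW a ha a ha)) x).1 ?_
      have h := hg (π (S.tr a (hW a ha a ha) 1 (map_one _))) ⟨_, tr_mem_rad S hW ha 1 (map_one _), rfl⟩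
      rw [Commute, SemiconjBy, ← map_mul, ← map_mul, hker] at h
      exact h
    obtain ⟨r, hr, hxu⟩ := hroot u huW hu0
    have hr0 : r ≠ 0 := fun h => by simp [h] at hr
    have hv0 : v ≠ 0 := fun h => hvu (h ▸ zero_mem _)
    have hxv : ap (gl n q F x) v = r • v := by
      obtain ⟨r', -, hxv⟩ := hroot v hvW hv0
      have huv0 : u + v ≠ 0 := fun h => hvu (Submodule.mem_span_singleton.2 ⟨-1, by
        rw [neg_one_smul]; exact (eq_neg_of_add_eq_zero_right h).symm⟩)
      obtain ⟨r'', -, hs⟩ := hroot (u + v) (add_mem huW hvW) huv0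
      rw [ap_add, hxu, hxv] at hs
      have h1 : (r - r'') • u + (r' - r'') • v = 0 := by linear_combination (norm := module) hs
      have h2 : r' = r'' := by
        by_contra hne
        refine hvu (Submodule.mem_span_singleton.2 ⟨-((r' - r'')⁻¹ * (r - r'')), ?_⟩)
        have h3 : (r' - r'') • v = -((r - r'') • u) := eq_neg_of_add_eq_zero_right h1
        rw [neg_smul, mul_smul, ← smul_neg, ← h3, inv_smul_smul₀ (sub_ne_zero.2 hne)]
      rw [h2, sub_self, zero_smul, add_zero] at h1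
      rw [hxv, h2, sub_eq_zero.1 ((smul_eq_zero.1 h1).resolve_right hu0)]
    have hxW : ∀ w ∈ W, ap (gl n q F x) w = r • w := fun w hw => by
      obtain ⟨α, β, rfl⟩ := Submodule.mem_span_pair.1 hw
      rw [ap_add, ap_smul, ap_smul, hxu, hxv]
      module
    obtain ⟨Q, hQu⟩ := S.exists_partner hu hu0
    have hwu : S.f Q.w u = 1 := hQu ▸ Q.hwu
    have hperp : ∀ a ∈ perp A W, ap (gl n q F x) a - r • a ∈ W := by
      intro a ha
      obtain ⟨c, hc⟩ := S.exists_c a
      obtain ⟨h, -, he⟩ := exists_E_elt S u a c hu (ha u huW) hc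
      have hmem : h ∈ rad S W := by
        refine ⟨fun w hw => ?_, fun z hz => ?_⟩
        · rw [he, ap_E A, hW w hw u huW, show S.f w a = 0 from (eq_zero_comm A).1 (ha w hw)]
          simp
        · rw [he, ap_E A, show S.f z u = 0 from hz u huW]
          simpa using W.smul_mem _ huW
      have hxh : x * h * x⁻¹ = h := by
        have hcm := hg (π h) ⟨h, hmem, rfl⟩
        refine eq_of_proj S π hker (i := 2) (j := 2) (by rw [conj_pow, rad_pow S p hmem, mul_one, mul_inv_cancel])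
          (rad_pow S p hmem) ?_
        rw [map_mul, map_mul, map_inv, hcm.eq, mul_inv_cancel_right]
      have hfu : ∀ y, S.f (ap (gl n q F x) y) u = r * S.f y u := by
        intro y
        have := S.f_gl x y u
        rw [hxu, Unitary.smul_right A] at this
        linear_combination r * this - S.f (ap (gl n q F x) y) u * hr
      have h3 := congrArg (fun z : SUn => ap (gl n q F z) Q.w) (mul_inv_eq_iff_eq_mul.1 hxh)
      simp only [map_mul, ap_mul, he, ap_E A, ap_add, ap_smul, hxu, hfu, hwu, one_smul, mul_one] at h3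
      refine hspu (Submodule.mem_span_singleton.2 ⟨S.f (ap (gl n q F x) Q.w) a - r * S.f Q.w a, ?_⟩)
      linear_combination (norm := module) -h3
    have hrn : S.σ r = r⁻¹ := eq_inv_of_mul_eq_one_right hr
    set M : Matrix (Fin n) (Fin n) F := r⁻¹ • ((gl n q F x : GL (Fin n) F) : Matrix (Fin n) (Fin n) F) with hM
    have hMv : ∀ z, M *ᵥ z = r⁻¹ • ap (gl n q F x) z := fun z => by rw [hM, Matrix.smul_mulVec]; rfl
    have hf' : ∀ a b, S.f (M *ᵥ a) (M *ᵥ b) = S.f a b := fun a b => by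
      rw [hMv, hMv, S.sk.smul_left, Unitary.smul_right A, S.f_gl, map_inv₀, hrn]
      field_simp
    have hM3 : (M - 1) ^ 3 = 0 := by
      refine Matrix.ext_of_mulVec_single fun i => ?_
      rw [Matrix.zero_mulVec, show (3 : ℕ) = 1 + 1 + 1 from rfl, pow_add, pow_add, pow_one,
        ← Matrix.mulVec_mulVec, ← Matrix.mulVec_mulVec]
      set z : V := Pi.single i 1
      simp only [Matrix.sub_mulVec, Matrix.one_mulVec]
      have hfix : ∀ w ∈ W, M *ᵥ w = w := fun w hw => by rw [hMv, hxW w hw, inv_smul_smul₀ hr0]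
      have h1 : M *ᵥ z - z ∈ perp A W := fun w hw => by
        show S.f _ w = 0
        have := hf' z w
        rw [hfix w hw] at this
        rw [Unitary.sub_left A, this, sub_self]
      have h2 : M *ᵥ (M *ᵥ z - z) - (M *ᵥ z - z) ∈ W := by
        rw [hMv (M *ᵥ z - z)]
        have := W.smul_mem r⁻¹ (hperp _ h1)
        rwa [smul_sub, inv_smul_smul₀ hr0] at this
      rw [hfix _ h2, sub_self]
    have hdet : M.det = 1 := by
      have h1 := congrArg Matrix.det (pow_eq_one_of_cube p hM3)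
      rw [Matrix.det_pow, Matrix.det_one] at h1
      have h3 : (M.det - 1) ^ p ^ 2 = 0 := by rw [sub_pow_char_pow, one_pow, h1, sub_self]
      exact sub_eq_zero.1 (pow_eq_zero_iff (pow_ne_zero _ (Fact.out : p.Prime).ne_zero) |>.1 h3)
    let g' : GL (Fin n) F := Matrix.GeneralLinearGroup.mkOfDetNeZero M (by rw [hdet]; exact one_ne_zero)
    have hg' : g' ∈ isom S.f ⊓ Cfsg.Geo.specialLinear (Fin n) F :=
      ⟨mem_isom_iff.2 fun a b => hf' a b, (mem_specialLinear_iff _).2 hdet⟩
    set y := S.el g' hg'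
    have hy : ∀ z, ap (gl n q F y) z = r⁻¹ • ap (gl n q F x) z := fun z => by
      rw [S.gl_el]; exact hMv z
    refine ⟨y, ⟨fun w hw => by rw [hy, hxW w hw, inv_smul_smul₀ hr0], fun a ha => ?_⟩, ?_⟩
    · rw [hy]
      have := W.smul_mem r⁻¹ (hperp a ha)
      rwa [smul_sub, inv_smul_smul₀ hr0] at this
    · refine (hker _ _).2 (cl_eq_cl_iff_center.2 (mem_center_of_scalar (a := r) fun z => ?_))
      rw [map_mul, ap_mul]
      have h1 : ap (gl n q F x) z = ap (gl n q F y) (r • z) := by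
        rw [ap_smul, hy, smul_inv_smul₀ hr0]
      rw [h1, ap_inv_ap']
  have hT2 : (T : Subgroup G) ≤ Subgroup.normalizer (((rad S W).map π : Subgroup G) : Set G) := by
    rw [hT]
    rintro _ ⟨s, hs, rfl⟩
    exact mem_normalizer_map S π hπ hker P T hT (hPW s hs)
  -- elements fixing `u`
  have hfixu : ∀ s : SUn, ap (gl n q F s) u = u → π s ∈ CharPSimple.pNorm p ((S.unip u).map π) := by
    intro s hs
    set M := (CharPSimple.pNorm p ((S.unip u).map π)).comap π
    have hp : ∀ {t : SUn}, ap (gl n q F t) u = u → t ^ p ^ 2 = 1 → t ∈ M := fun {t} h1 h2 =>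
      CharPSimple.mem_pNorm (mem_normalizer_map S π hπ hker P T hT (hNu h1)) (k := 2)
        (by rw [← map_pow, h2, map_one])
    obtain ⟨Q, hQu⟩ := S.exists_partner hu hu0
    have hwu : S.f Q.w u = 1 := hQu ▸ Q.hwu
    obtain ⟨hvu', c, hc, hm⟩ := exists_E_move A (w := Q.w) (y := ap (gl n q F s) Q.w) hu hwu
      (by
        have e := S.f_gl s Q.w u
        rw [hs] at e
        exact e.trans hwu) (by exact S.f_gl s Q.w Q.w)
    obtain ⟨h, hh, he⟩ := exists_E_elt S u _ c hu hvu' hc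
    have hhM : h ∈ M := hp hh.1 (by rw [← rad_span] at hh; exact rad_pow S p hh)
    set U₀ := (⊥ : Submodule F V) ⊔ Submodule.span F {u, Q.w}
    have hU₀ : Cfsg.Geo.IsNondegenerateOn S.f U₀ :=
      nondeg_sup_pair S (fun x hx hne => absurd ((Submodule.mem_bot F).mp hx) hne)
        (mem_perp_bot A _) (mem_perp_bot A _) hu Q.hww hwu
    have huU : u ∈ U₀ := Submodule.mem_sup_right (Submodule.subset_span (by simp))
    have hgen := UnitaryFixGen.le_of_hasE (M := M.map (gl n q F)) A hU₀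
      (fun a ha d hd haU => by
        refine ⟨S.tr a ha d hd, hp ?_ ?_, S.gl_tr a ha d hd⟩
        · rw [S.gl_tr, ap_T_fix A _ ((eq_zero_comm A).1 (haU u huU))]
        · refine rad_pow S p (W := Submodule.span F {a}) ?_
          rw [rad_span]; exact S.tr_mem_unip ha d hd)
      (fun a b d ha hb haU hbU hd => by
        obtain ⟨t, ht, hte⟩ := exists_E_elt S a b d ha hb hd
        refine ⟨t, hp ?_ (rad_pow S p (W := Submodule.span F {a}) (by rw [rad_span]; exact ht)), hte⟩
        rw [hte, ap_E A, show S.f u a = 0 from (eq_zero_comm A).1 (haU u huU),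
          show S.f u b = 0 from (eq_zero_comm A).1 (hbU u huU)]
        simp)
      (gl n q F (h⁻¹ * s)) ⟨S.gl_isom _, (mem_specialLinear_iff _).2 (gl_det _)⟩ (fun z hz => by
        obtain ⟨a, ha, b, hb, rfl⟩ := Submodule.mem_sup.1 hz
        obtain ⟨α, β, rfl⟩ := Submodule.mem_span_pair.1 hb
        rw [(Submodule.mem_bot F).mp ha, zero_add]
        have e1 : ap (gl n q F (h⁻¹ * s)) u = u := by rw [map_mul, ap_mul, hs, fix_inv hh.1]
        have e2 : ap (gl n q F (h⁻¹ * s)) Q.w = Q.w := by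
          have hm' : ap (gl n q F h) Q.w = ap (gl n q F s) Q.w := by rw [he]; exact hm
          rw [map_mul, ap_mul, ← hm', ap_inv_ap']
        rw [ap_add, ap_smul, ap_smul, e1, e2])
    obtain ⟨t, htM, hte⟩ := hgen
    rw [gl_injective hte] at htM
    have : h * (h⁻¹ * s) ∈ M := mul_mem hhM htM
    rwa [mul_inv_cancel_left] at this
  -- scalings of `u`
  have hscale : ∀ r : F, r ≠ 0 → ∃ t : SUn, π t ∈ Subgroup.normalizer ((T : Subgroup G) : Set G) ∧
      π t ∈ CharPSimple.pNorm p ((rad S W).map π) ∧ ap (gl n q F t) u = r • u := by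
    intro r hr0
    set M := (CharPSimple.pNorm p ((rad S W).map π)).comap π
    have htop : Cfsg.Geo.IsNondegenerateOn S.f (⊤ : Submodule F V) := fun x _ hx => by
      obtain ⟨⟨a, ha⟩, ⟨b, hb⟩⟩ := S.sk.nondegenerate x hx
      exact ⟨⟨a, trivial, ha⟩, ⟨b, trivial, hb⟩⟩
    have hv0 : v ≠ 0 := fun h => hvu (h ▸ zero_mem _)
    have hY : ∀ a : F, ∃ t ∈ M, ap (gl n q F t) v = v ∧ ap (gl n q F t) u = u + a • v := by
      intro a
      obtain ⟨b, -, hub, hvb⟩ := exists_values A htop Submodule.mem_top Submodule.mem_top hvu hu0 a 0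
      obtain ⟨c, hc⟩ := S.exists_c b
      obtain ⟨t, ht, hte⟩ := exists_E_elt S v b c hvv ((eq_zero_comm A).1 hvb) hc
      have hu' : ap (gl n q F t) u = u + a • v := by
        rw [hte, ap_E A, show S.f u v = 0 from (eq_zero_comm A).1 hvu0, show S.f u b = a from hub]
        simp
      have hui : ap (gl n q F t⁻¹) u = u - a • v := by
        have h1 := congrArg (ap (gl n q F t⁻¹)) hu'
        rw [ap_inv_ap', ap_add, ap_smul, fix_inv ht.1] at h1
        exact eq_sub_of_add_eq h1.symm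
      refine ⟨t, CharPSimple.mem_pNorm (mem_normalizer_map S π hπ hker P T hT (hWN ?_ ?_ ?_ ?_)) (k := 2) ?_,
        ht.1, hu'⟩
      · rw [hu']; exact add_mem huW (Submodule.smul_mem _ _ hvW)
      · rw [ht.1]; exact hvW
      · rw [hui]; exact sub_mem huW (Submodule.smul_mem _ _ hvW)
      · rw [fix_inv ht.1]; exact hvW
      · rw [← map_pow, rad_pow S p (W := Submodule.span F {v}) (by rw [rad_span]; exact ht), map_one]
    obtain ⟨X, hXM, hXu, hXv⟩ : ∃ t ∈ M, ap (gl n q F t) u = u ∧ ap (gl n q F t) v = v + u := by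
      obtain ⟨b, -, hub, hvb⟩ := exists_values A htop Submodule.mem_top Submodule.mem_top hvu hu0 0 1
      obtain ⟨c, hc⟩ := S.exists_c b
      obtain ⟨t, ht, hte⟩ := exists_E_elt S u b c hu ((eq_zero_comm A).1 hub) hc
      have hv' : ap (gl n q F t) v = v + u := by
        rw [hte, ap_E A, show S.f v u = 0 from hvu0, show S.f v b = 1 from hvb]
        simp
      have hvi : ap (gl n q F t⁻¹) v = v - u := by
        have h1 := congrArg (ap (gl n q F t⁻¹)) hv'
        rw [ap_inv_ap', ap_add, fix_inv ht.1] at h1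
        exact eq_sub_of_add_eq h1.symm
      refine ⟨t, CharPSimple.mem_pNorm (mem_normalizer_map S π hπ hker P T hT (hWN ?_ ?_ ?_ ?_)) (k := 2) ?_,
        ht.1, hv'⟩
      · rw [ht.1]; exact huW
      · rw [hv']; exact add_mem hvW huW
      · rw [fix_inv ht.1]; exact huW
      · rw [hvi]; exact sub_mem hvW huW
      · rw [← map_pow, rad_pow S p (W := Submodule.span F {u}) (by rw [rad_span]; exact ht), map_one]
    obtain ⟨Y₁, hY₁M, hY₁v, hY₁u⟩ := hY (r - 1)
    obtain ⟨Y₂, hY₂M, hY₂v, hY₂u⟩ := hY (r⁻¹ - 1)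
    set k := Y₂ * X * Y₁
    have hkM : k ∈ M := mul_mem (mul_mem hY₂M hXM) hY₁M
    have hku : ap (gl n q F k) u = r • u := by
      simp only [k, map_mul, ap_mul, hY₁u, ap_add, ap_smul, hXu, hXv, hY₂u, hY₂v]
      match_scalars <;> field_simp <;> ring
    set H : Subgroup SUn := M ⊓ fixS (n := n) (q := q) (Submodule.span F {u})
    have hfix1 : ∀ {s : SUn}, ap (gl n q F s) u = u → s ∈ fixS (n := n) (q := q) (Submodule.span F {u}) :=
      fun hs x hx => by
        obtain ⟨α, rfl⟩ := Submodule.mem_span_singleton.1 hx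
        rw [ap_smul, hs]
    have hPH : (P : Subgroup SUn) ≤ H := fun s hs => by
      obtain ⟨i, hi⟩ := P.isPGroup' ⟨s, hs⟩
      refine ⟨CharPSimple.mem_pNorm (mem_normalizer_map S π hπ hker P T hT (hPW s hs)) (k := i) ?_,
        hfix1 (hPu s hs)⟩
      rw [← map_pow, show s ^ p ^ i = 1 from congrArg Subtype.val hi, map_one]
    have hkP : ((k • P : Sylow p SUn) : Subgroup SUn) ≤ H := by
      rw [Sylow.coe_subgroup_smul]
      rintro _ ⟨s, hs, rfl⟩
      refine ⟨M.mul_mem (M.mul_mem hkM (hPH hs).1) (M.inv_mem hkM), hfix1 ?_⟩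
      show ap (gl n q F (k * s * k⁻¹)) u = u
      have hki : ap (gl n q F k⁻¹) u = r⁻¹ • u := by
        conv_lhs => rw [← inv_smul_smul₀ hr0 u, ← hku]
        rw [ap_smul, ap_inv_ap']
      rw [map_mul, map_mul, ap_mul, ap_mul, hki, ap_smul, hPu s hs, ap_smul, hku, inv_smul_smul₀ hr0]
    obtain ⟨m, hm⟩ := MulAction.exists_smul_eq H ((k • P).subtype hkP) (P.subtype hPH)
    refine ⟨m.1 * k, ?_, ?_, ?_⟩
    · rw [hT]
      refine mem_normalizer_map S π hπ hker P T hT fun s hs => ?_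
      have h1 : (⟨k * s * k⁻¹, hkP (by rw [Sylow.coe_subgroup_smul]; exact ⟨s, hs, rfl⟩)⟩ : H) ∈
          ((k • P).subtype hkP : Subgroup H) := by
        show k * s * k⁻¹ ∈ ((k • P : Sylow p SUn) : Subgroup SUn)
        rw [Sylow.coe_subgroup_smul]; exact ⟨s, hs, rfl⟩
      have h2 : m * ⟨k * s * k⁻¹, hkP (by rw [Sylow.coe_subgroup_smul]; exact ⟨s, hs, rfl⟩)⟩ * m⁻¹ ∈ ((P.subtype hPH : Sylow p H) : Subgroup H) := by
        rw [← hm, Sylow.coe_subgroup_smul]
        exact ⟨_, h1, rfl⟩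
      have h3 : m.1 * (k * s * k⁻¹) * m.1⁻¹ ∈ (P : Subgroup SUn) := h2
      rwa [show m.1 * k * s * (m.1 * k)⁻¹ = m.1 * (k * s * k⁻¹) * m.1⁻¹ by group]
    · exact mul_mem (m.2.1 : m.1 ∈ M) hkM
    · rw [map_mul, ap_mul, hku, ap_smul, (m.2.2 : m.1 ∈ fixS _) u (Submodule.mem_span_singleton_self u)]
  intro g hg
  obtain ⟨k, rfl⟩ := hπ g
  have hkP : ∀ s ∈ (P : Subgroup SUn), k⁻¹ * s * k ∈ (P : Subgroup SUn) := by
    intro s hs
    obtain ⟨i, hi⟩ := P.isPGroup' ⟨s, hs⟩
    refine mem_P S π hπ hker P T hT (i := i) ?_ ?_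
    · have := conj_pow (i := p ^ i) (a := k⁻¹) (b := s)
      rw [inv_inv] at this
      rw [this, show s ^ p ^ i = 1 from congrArg Subtype.val hi, mul_one, inv_mul_cancel]
    · have := (Subgroup.mem_normalizer_iff.1 (inv_mem hg) (π s)).1 (hT ▸ ⟨s, hs, rfl⟩)
      simpa using this
  obtain ⟨r, hr0, hku⟩ : ∃ r : F, r ≠ 0 ∧ ap (gl n q F k) u = r • u := by
    have hfixed : ∀ s ∈ (P : Subgroup SUn), ap (gl n q F s) (ap (gl n q F k) u) = ap (gl n q F k) u := by
      intro s hs
      have := hPu _ (hkP s hs)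
      rw [map_mul, map_mul, ap_mul, ap_mul] at this
      have h1 := congrArg (ap (gl n q F k)) this
      rwa [ap_ap_inv'] at h1
    set x := ap (gl n q F k) u
    have hxu : S.f x u = 0 := by
      have h := hfixed _ (huP (S.tr_mem_unip hu 1 (map_one _)))
      rw [S.gl_tr, ap_T A, one_mul, add_eq_left, smul_eq_zero] at h
      exact h.resolve_right hu0
    have hmem : x ∈ Submodule.span F {u} := mem_of_forall_perp A fun a ha => by
      have hau : S.f a u = 0 := (mem_perp_span A).1 ha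
      obtain ⟨c, hc⟩ := S.exists_c a
      obtain ⟨t, ht, hte⟩ := exists_E_elt S u a c hu hau hc
      have h := hfixed t (huP ht)
      rw [hte, ap_E A, hxu] at h
      simp only [mul_zero, zero_smul, add_zero, add_eq_left, smul_eq_zero] at h
      exact h.resolve_right hu0
    obtain ⟨r, hr⟩ := Submodule.mem_span_singleton.1 hmem
    exact ⟨r, fun h0 => ap_ne_zero _ hu0 (show x = 0 by rw [← hr, h0, zero_smul]), hr.symm⟩
  obtain ⟨t, htN, htM, htu⟩ := hscale r hr0
  refine Subgroup.mem_sup_right ?_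
  rw [show k = t * (t⁻¹ * k) by rw [mul_inv_cancel_left], map_mul]
  refine mul_mem (Subgroup.subset_closure ⟨htN, _, hR2c, hT2, htM⟩)
    (Subgroup.subset_closure ⟨?_, _, hR1c, hT1, hfixu _ ?_⟩)
  · rw [map_mul, map_inv]
    exact mul_mem (inv_mem htN) hg
  · rw [map_mul, ap_mul, hku, ← htu, ap_inv_ap']

theorem simple_of_coordinates (hn : 4 ≤ n) (hpq : p ∣ q) :
    (Cfsg.groupFusionSystem (T : Subgroup G)).IsSimple p := by
  obtain ⟨u, hu0, hu, hPu, huP⟩ := S.exists_sylow_fix p hpq P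
  refine CharPSimple.isSimple_of_criterion T (fun h => ?_)
    (fun H hH hne => stronglyClosed_top S π hπ hker P T hT hn hu0 hu huP hH hne)
    (normalizer_le S π hπ hker P T hT hn hu0 hu hPu huP)
  have h1 : π (S.tr u hu 1 (map_one _)) ∈ (T : Subgroup G) := hT ▸ ⟨_, huP (S.tr_mem_unip hu 1 (map_one _)), rfl⟩
  rw [h, Subgroup.mem_bot, ← map_one π, hker] at h1
  exact S.rootAt_ne_one hu0 ⟨hu, 1, map_one _, one_ne_zero, rfl⟩ h1

end Coordinates

end CfsgLib.InvChar.UnitaryFusion
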